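import Mathlib

/-!
Tensor products of two symplectic spaces, coordinate free.

* `kU f u : U ⊗ W → W`, `kW g w : U ⊗ W → U`: contraction with a vector;
* `E1 f x y z = f y z • x`, a rank one operator;
* `In M n`: the subgroup `M` of `V ≃ₗ[F] V` contains the map `1 + n`;
* `Alt f`: `f` alternating and nondegenerate; `exists_dual`, `exists_sep`.
-/

set_option autoImplicit false

namespace Cfsg.Agent.H887.TenSp

open TensorProduct

variable {F U W V : Type*} [Field F] [AddCommGroup U] [Module F U] [AddCommGroup W] [Module F W]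
  [AddCommGroup V] [Module F V]

/-! ### Alternating forms -/

/-- `f` is alternating and nondegenerate. -/
structure Alt (f : LinearMap.BilinForm F U) : Prop where
  alt : ∀ x, f x x = 0
  nd : ∀ x, (∀ y, f x y = 0) → x = 0

variable {f : LinearMap.BilinForm F U} {g : LinearMap.BilinForm F W}

theorem Alt.neg (h : Alt f) (x y : U) : f x y = - f y x := by
  have h1 := h.alt (x + y)
  simp only [map_add, LinearMap.add_apply, h.alt, zero_add, add_zero] at h1
  exact eq_neg_of_add_eq_zero_right h1

theorem Alt.comm_zero (h : Alt f) {x y : U} (hxy : f x y = 0) : f y x = 0 := by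
  rw [h.neg, hxy, neg_zero]

theorem Alt.nd' (h : Alt f) (x : U) (hx : ∀ y, f y x = 0) : x = 0 :=
  h.nd x fun y => h.comm_zero (hx y)

theorem Alt.exists_ne (h : Alt f) {x : U} (hx : x ≠ 0) : ∃ y, f x y = 1 := by
  by_contra hcon
  push Not at hcon
  apply hx
  apply h.nd
  intro y
  by_contra hy
  apply hcon ((f x y)⁻¹ • y)
  rw [map_smul, smul_eq_mul, inv_mul_cancel₀ hy]

theorem Alt.exists_ne' (h : Alt f) {x : U} (hx : x ≠ 0) : ∃ y, f y x = 1 := by
  obtain ⟨y, hy⟩ := h.exists_ne hx
  exact ⟨-y, by rw [h.neg, map_neg, neg_neg, hy]⟩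

/-- Every functional is of the form `f u`. -/
theorem Alt.exists_dual [FiniteDimensional F U] (h : Alt f) (φ : Module.Dual F U) :
    ∃ u, ∀ z, f u z = φ z := by
  have hinj : Function.Injective f := by
    rw [← LinearMap.ker_eq_bot, LinearMap.ker_eq_bot']
    intro x hx
    exact h.nd x fun y => by rw [hx]; rfl
  have hsurj : Function.Surjective f := by
    have := LinearMap.injective_iff_surjective_of_finrank_eq_finrank (f := f)
      (Subspace.dual_finrank_eq (K := F) (V := U)).symm
    exact this.1 hinj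
  obtain ⟨u, hu⟩ := hsurj φ
  exact ⟨u, fun z => by rw [hu]⟩

/-- Separation of a vector from a subspace. -/
theorem Alt.exists_sep [FiniteDimensional F U] (h : Alt f) (p : Submodule F U) {x : U}
    (hx : x ∉ p) : ∃ u, f u x = 1 ∧ ∀ z ∈ p, f u z = 0 := by
  obtain ⟨φ, hφ, hp⟩ := Submodule.exists_le_ker_of_notMem hx
  obtain ⟨u, hu⟩ := h.exists_dual ((φ x)⁻¹ • φ)
  refine ⟨u, ?_, fun z hz => ?_⟩
  · rw [hu, LinearMap.smul_apply, smul_eq_mul, inv_mul_cancel₀ hφ]
  · rw [hu, LinearMap.smul_apply, LinearMap.mem_ker.1 (hp hz), smul_zero]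

theorem Alt.exists_sep' [FiniteDimensional F U] (h : Alt f) (p : Submodule F U) {x : U}
    (hx : x ∉ p) : ∃ u, f x u = 1 ∧ ∀ z ∈ p, f z u = 0 := by
  obtain ⟨u, hu, hp⟩ := h.exists_sep p hx
  refine ⟨-u, ?_, fun z hz => ?_⟩
  · rw [map_neg, ← h.neg, hu]
  · rw [map_neg, ← h.neg, hp z hz]

/-- Separation from one vector. -/
theorem Alt.sep1 [FiniteDimensional F U] (h : Alt f) {x a : U} (hx : x ∉ Submodule.span F {a}) :
    ∃ u, f u x = 1 ∧ f u a = 0 := by
  obtain ⟨u, hu, hp⟩ := h.exists_sep _ hx
  exact ⟨u, hu, hp a (Submodule.mem_span_singleton_self a)⟩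

/-- Separation from two vectors. -/
theorem Alt.sep2 [FiniteDimensional F U] (h : Alt f) {x a b : U}
    (hx : x ∉ Submodule.span F {a, b}) : ∃ u, f u x = 1 ∧ f u a = 0 ∧ f u b = 0 := by
  obtain ⟨u, hu, hp⟩ := h.exists_sep _ hx
  exact ⟨u, hu, hp a (Submodule.subset_span (by simp)), hp b (Submodule.subset_span (by simp))⟩

/-- Separation from three vectors. -/
theorem Alt.sep3 [FiniteDimensional F U] (h : Alt f) {x a b c : U}
    (hx : x ∉ Submodule.span F {a, b, c}) :
    ∃ u, f u x = 1 ∧ f u a = 0 ∧ f u b = 0 ∧ f u c = 0 := by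
  obtain ⟨u, hu, hp⟩ := h.exists_sep _ hx
  exact ⟨u, hu, hp a (Submodule.subset_span (by simp)), hp b (Submodule.subset_span (by simp)),
    hp c (Submodule.subset_span (by simp))⟩

/-- A nonzero vector orthogonal to everything in a proper subspace. -/
theorem Alt.exists_perp [FiniteDimensional F U] (h : Alt f) {p : Submodule F U} (hp : p ≠ ⊤) :
    ∃ u, u ≠ 0 ∧ ∀ z ∈ p, f u z = 0 := by
  obtain ⟨x, hx⟩ : ∃ x, x ∉ p := by
    by_contra hcon
    push Not at hcon
    exact hp (Submodule.eq_top_iff'.2 hcon)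
  obtain ⟨u, hu, hu'⟩ := h.exists_sep p hx
  refine ⟨u, ?_, hu'⟩
  rintro rfl
  simp at hu

theorem finrank_span_pair_le (a b : U) : Module.finrank F (Submodule.span F {a, b}) ≤ 2 := by
  classical
  have h := finrank_span_finset_le_card (R := F) ({a, b} : Finset U)
  have e : ((({a, b} : Finset U)) : Set U) = {a, b} := by simp
  rw [Set.finrank, e] at h
  exact h.trans Finset.card_le_two

theorem finrank_span_triple_le (a b c : U) :
    Module.finrank F (Submodule.span F {a, b, c}) ≤ 3 := by
  classical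
  have h := finrank_span_finset_le_card (R := F) ({a, b, c} : Finset U)
  have e : ((({a, b, c} : Finset U)) : Set U) = {a, b, c} := by simp
  rw [Set.finrank, e] at h
  exact h.trans Finset.card_le_three

/-- The orthogonal complement of a subspace. -/
def perp (f : LinearMap.BilinForm F U) (p : Submodule F U) : Submodule F U where
  carrier := {x | ∀ z ∈ p, f z x = 0}
  zero_mem' := fun z _ => map_zero _
  add_mem' := by
    intro x y hx hy z hz
    rw [map_add, hx z hz, hy z hz, add_zero]
  smul_mem' := by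
    intro c x hx z hz
    rw [map_smul, hx z hz, smul_zero]

theorem mem_perp {p : Submodule F U} {x : U} : x ∈ perp f p ↔ ∀ z ∈ p, f z x = 0 := Iff.rfl

theorem Alt.mem_perp' (h : Alt f) {p : Submodule F U} {x : U} :
    x ∈ perp f p ↔ ∀ z ∈ p, f x z = 0 :=
  ⟨fun hx z hz => h.comm_zero (hx z hz), fun hx z hz => h.comm_zero (hx z hz)⟩

/-- `finrank (perp p) + finrank p = finrank U`. -/
theorem Alt.finrank_perp [FiniteDimensional F U] (h : Alt f) (p : Submodule F U) :
    Module.finrank F (perp f p) + Module.finrank F p = Module.finrank F U := by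
  -- the map `U → Dual p`
  let φ : U →ₗ[F] Module.Dual F p := (Submodule.subtype p).dualMap ∘ₗ f
  have hφ : ∀ x (z : p), φ x z = f x z := fun _ _ => rfl
  have hker : LinearMap.ker φ = perp f p := by
    ext x
    rw [LinearMap.mem_ker, h.mem_perp']
    constructor
    · intro hx z hz
      have := LinearMap.congr_fun hx ⟨z, hz⟩
      exact this
    · intro hx
      ext z
      exact hx z z.2
  have hsurj : LinearMap.range φ = ⊤ := by
    rw [LinearMap.range_eq_top]
    intro ψ
    obtain ⟨ψ', hψ'⟩ := LinearMap.exists_extend ψ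
    obtain ⟨u, hu⟩ := h.exists_dual ψ'
    refine ⟨u, ?_⟩
    ext z
    rw [hφ, hu, ← hψ']
    rfl
  have h1 := LinearMap.finrank_range_add_finrank_ker φ
  rw [hker, hsurj, finrank_top, Subspace.dual_finrank_eq] at h1
  omega

theorem Alt.perp_perp [FiniteDimensional F U] (h : Alt f) (p : Submodule F U) :
    perp f (perp f p) = p := by
  symm
  apply Submodule.eq_of_le_of_finrank_eq
  · intro x hx z hz
    exact h.comm_zero (hz x hx)
  · have h1 := h.finrank_perp p
    have h2 := h.finrank_perp (perp f p)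
    omega

/-! ### Rank one operators -/

/-- The operator `z ↦ f y z • x`. -/
def E1 (f : LinearMap.BilinForm F U) (x y : U) : U →ₗ[F] U := (f y).smulRight x

@[simp] theorem E1_apply (x y z : U) : E1 f x y z = f y z • x := rfl

theorem E1_add_left (x x' y : U) : E1 f (x + x') y = E1 f x y + E1 f x' y := by
  ext z; simp

theorem E1_add_right (x y y' : U) : E1 f x (y + y') = E1 f x y + E1 f x y' := by
  ext z; simp [add_smul]

theorem E1_smul_left (c : F) (x y : U) : E1 f (c • x) y = c • E1 f x y := by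
  ext z; simp [smul_smul, mul_comm]

theorem E1_smul_right (c : F) (x y : U) : E1 f x (c • y) = c • E1 f x y := by
  ext z; simp [smul_smul]

theorem E1_mul (x y x' y' : U) : E1 f x y * E1 f x' y' = f y x' • E1 f x y' := by
  ext z
  simp [smul_smul, mul_comm]

/-! ### Contractions -/

/-- Contraction with `u` in the first factor. -/
def kU (f : LinearMap.BilinForm F U) (W : Type*) [AddCommGroup W] [Module F W] (u : U) :
    U ⊗[F] W →ₗ[F] W :=
  (TensorProduct.lid F W).toLinearMap ∘ₗ LinearMap.rTensor W (f u)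

@[simp] theorem kU_tmul (u z : U) (t : W) : kU f W u (z ⊗ₜ t) = f u z • t := by
  simp [kU]

/-- Contraction with `w` in the second factor. -/
def kW (U : Type*) [AddCommGroup U] [Module F U] (g : LinearMap.BilinForm F W) (w : W) :
    U ⊗[F] W →ₗ[F] U :=
  (TensorProduct.rid F U).toLinearMap ∘ₗ LinearMap.lTensor U (g w)

@[simp] theorem kW_tmul (w : W) (z : U) (t : W) : kW U g w (z ⊗ₜ t) = g w t • z := by
  simp [kW]

theorem kU_add (u u' : U) (v : U ⊗[F] W) : kU f W (u + u') v = kU f W u v + kU f W u' v := by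
  induction v with
  | zero => simp
  | tmul x y => simp [add_smul]
  | add x y hx hy => rw [map_add, hx, hy, map_add, map_add]; abel

theorem kU_smul (c : F) (u : U) (v : U ⊗[F] W) : kU f W (c • u) v = c • kU f W u v := by
  induction v with
  | zero => simp
  | tmul x y => simp [smul_smul]
  | add x y hx hy => rw [map_add, hx, hy, map_add, smul_add]

theorem kW_add (w w' : W) (v : U ⊗[F] W) : kW U g (w + w') v = kW U g w v + kW U g w' v := by
  induction v with
  | zero => simp
  | tmul x y => simp [add_smul]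
  | add x y hx hy => rw [map_add, hx, hy, map_add, map_add]; abel

theorem kW_smul (c : F) (w : W) (v : U ⊗[F] W) : kW U g (c • w) v = c • kW U g w v := by
  induction v with
  | zero => simp
  | tmul x y => simp [smul_smul]
  | add x y hx hy => rw [map_add, hx, hy, map_add, smul_add]

/-- `w ↦ kW w v` as a linear map. -/
def kWlin (U : Type*) [AddCommGroup U] [Module F U] (g : LinearMap.BilinForm F W)
    (v : U ⊗[F] W) : W →ₗ[F] U where
  toFun := fun w => kW U g w v
  map_add' := fun w w' => kW_add w w' v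
  map_smul' := fun c w => kW_smul c w v

/-- `u ↦ kU u v` as a linear map. -/
def kUlin (f : LinearMap.BilinForm F U) (v : U ⊗[F] W) : U →ₗ[F] W where
  toFun := fun u => kU f W u v
  map_add' := fun u u' => kU_add u u' v
  map_smul' := fun c u => kU_smul c u v

theorem Alt.tmul_eq_zero (hf : Alt f) {x : U} {y : W} (hx : x ≠ 0) (h : x ⊗ₜ[F] y = 0) :
    y = 0 := by
  obtain ⟨u, hu⟩ := hf.exists_ne' hx
  have := congrArg (kU f W u) h
  rwa [kU_tmul, hu, one_smul, map_zero] at this

theorem Alt.tmul_eq_zero' (hg : Alt g) {x : U} {y : W} (hy : y ≠ 0) (h : x ⊗ₜ[F] y = 0) :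
    x = 0 := by
  obtain ⟨u, hu⟩ := hg.exists_ne' hy
  have := congrArg (kW U g u) h
  rwa [kW_tmul, hu, one_smul, map_zero] at this

theorem Alt.tmul_ne_zero (hf : Alt f) {x : U} {y : W} (hx : x ≠ 0) (hy : y ≠ 0) :
    x ⊗ₜ[F] y ≠ 0 := fun h => hy (hf.tmul_eq_zero hx h)

theorem Alt.tmul_right_inj (hf : Alt f) {x : U} {y y' : W} (hx : x ≠ 0)
    (h : x ⊗ₜ[F] y = x ⊗ₜ[F] y') : y = y' := by
  rw [← sub_eq_zero, ← TensorProduct.tmul_sub] at h
  exact sub_eq_zero.1 (hf.tmul_eq_zero hx h)

theorem Alt.tmul_left_inj (hg : Alt g) {x x' : U} {y : W} (hy : y ≠ 0)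
    (h : x ⊗ₜ[F] y = x' ⊗ₜ[F] y) : x = x' := by
  rw [← sub_eq_zero, ← TensorProduct.sub_tmul] at h
  exact sub_eq_zero.1 (hg.tmul_eq_zero' hy h)

/-- All contractions zero: the vector is zero. -/
theorem eq_zero_of_kW [FiniteDimensional F U] (hg : Alt g) {v : U ⊗[F] W}
    (h : ∀ w, kW U g w v = 0) : v = 0 := by
  let b := Module.finBasis F U
  obtain ⟨c, hc⟩ := TensorProduct.eq_repr_basis_left b v
  have h1 : ∀ w, ∀ i, g w (c i) = 0 := by
    intro w i
    have h2 := h w
    rw [← hc, map_finsuppSum] at h2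
    have h3 : (c.sum fun i y => kW U g w (b i ⊗ₜ y)) = ∑ i, g w (c i) • b i := by
      rw [Finsupp.sum_fintype _ _ (by simp)]
      simp
    rw [h3] at h2
    exact Fintype.linearIndependent_iff.1 b.linearIndependent _ h2 i
  have h2 : c = 0 := by
    ext i
    exact hg.nd' _ fun w => h1 w i
  rw [← hc, h2]
  simp

/-- The subspace `U ⊗ p`. -/
def UL (U : Type*) [AddCommGroup U] [Module F U] (p : Submodule F W) : Submodule F (U ⊗[F] W) :=
  Submodule.span F {v | ∃ (z : U) (t : W), t ∈ p ∧ v = z ⊗ₜ t}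

theorem tmul_mem_UL {p : Submodule F W} (z : U) {t : W} (ht : t ∈ p) : z ⊗ₜ[F] t ∈ UL U p :=
  Submodule.subset_span ⟨z, t, ht, rfl⟩

theorem mem_UL_iff [FiniteDimensional F U] [FiniteDimensional F W] (hg : Alt g)
    {p : Submodule F W} {v : U ⊗[F] W} :
    v ∈ UL U p ↔ ∀ w ∈ perp g p, kW U g w v = 0 := by
  constructor
  · intro hv w hw
    have h1 : UL U p ≤ LinearMap.ker (kW U g w) := by
      refine Submodule.span_le.2 ?_
      rintro _ ⟨z, t, ht, rfl⟩
      show kW U g w _ = 0
      rw [kW_tmul, hg.comm_zero (hw t ht), zero_smul]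
    exact h1 hv
  · intro h
    let b := Module.finBasis F U
    obtain ⟨c, hc⟩ := TensorProduct.eq_repr_basis_left b v
    have h1 : ∀ w ∈ perp g p, ∀ i, g w (c i) = 0 := by
      intro w hw i
      have h2 := h w hw
      rw [← hc, map_finsuppSum] at h2
      have h3 : (c.sum fun i y => kW U g w (b i ⊗ₜ y)) = ∑ i, g w (c i) • b i := by
        rw [Finsupp.sum_fintype _ _ (by simp)]
        simp
      rw [h3] at h2
      exact Fintype.linearIndependent_iff.1 b.linearIndependent _ h2 i
    have h2 : ∀ i, c i ∈ p := by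
      intro i
      rw [← hg.perp_perp p]
      exact fun w hw => h1 w hw i
    rw [← hc]
    refine Submodule.sum_mem _ fun i _ => tmul_mem_UL _ (h2 i)

/-- Contractions with `u ∈ v^⊥` all zero: the vector is in `v ⊗ W`. -/
theorem exists_tmul_of_kU [FiniteDimensional F U] [FiniteDimensional F W] (hf : Alt f)
    {z : U} {v : U ⊗[F] W} (h : ∀ u, f u z = 0 → kU f W u v = 0) : ∃ t : W, v = z ⊗ₜ t := by
  by_cases hz : z = 0
  · subst hz
    refine ⟨0, ?_⟩
    rw [TensorProduct.tmul_zero]
    let b := Module.finBasis F W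
    obtain ⟨c, hc⟩ := TensorProduct.eq_repr_basis_right b v
    have h1 : ∀ u, ∀ i, f u (c i) = 0 := by
      intro u i
      have h2 := h u (map_zero _)
      rw [← hc, map_finsuppSum] at h2
      have h3 : (c.sum fun i y => kU f W u (y ⊗ₜ b i)) = ∑ i, f u (c i) • b i := by
        rw [Finsupp.sum_fintype _ _ (by simp)]
        simp
      rw [h3] at h2
      exact Fintype.linearIndependent_iff.1 b.linearIndependent _ h2 i
    have h2 : c = 0 := by
      ext i
      exact hf.nd' _ fun w => h1 w i
    rw [← hc, h2]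
    simp
  · let b := Module.finBasis F W
    obtain ⟨c, hc⟩ := TensorProduct.eq_repr_basis_right b v
    have h1 : ∀ u, f u z = 0 → ∀ i, f u (c i) = 0 := by
      intro u hu i
      have h2 := h u hu
      rw [← hc, map_finsuppSum] at h2
      have h3 : (c.sum fun i y => kU f W u (y ⊗ₜ b i)) = ∑ i, f u (c i) • b i := by
        rw [Finsupp.sum_fintype _ _ (by simp)]
        simp
      rw [h3] at h2
      exact Fintype.linearIndependent_iff.1 b.linearIndependent _ h2 i
    have h2 : ∀ i, ∃ a : F, a • z = c i := by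
      intro i
      by_contra hcon
      obtain ⟨u, hu, hu'⟩ := hf.sep1 (x := c i) (a := z)
        (fun hmem => hcon (Submodule.mem_span_singleton.1 hmem))
      rw [h1 u hu' i] at hu
      exact zero_ne_one hu
    choose a ha using h2
    refine ⟨∑ i, a i • b i, ?_⟩
    rw [← hc, Finsupp.sum_fintype _ _ (by simp), TensorProduct.tmul_sum]
    refine Finset.sum_congr rfl fun i _ => ?_
    rw [← ha, TensorProduct.smul_tmul]

end Cfsg.Agent.H887.TenSp
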