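import Mathlib
import Cfsg.Agent.H887.TenSp.Extract

/-!
The extraction of root elements, `dim U ≥ 3`.
-/

set_option autoImplicit false
set_option linter.unusedSectionVars false
set_option linter.unusedSimpArgs false

namespace Cfsg.Agent.H887.TenSp

open TensorProduct QuadraticMap Cfsg.Agent.LieClassical.OrthCore
  Cfsg.Agent.LieClassical.OrthTrans Cfsg.Agent.ClassicalGeometry.OrthAutBasic
  Cfsg.Agent.H887.SiegelMethod

variable {F U W : Type*} [Field F] [AddCommGroup U] [Module F U] [AddCommGroup W] [Module F W]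
  [FiniteDimensional F U] [FiniteDimensional F W]
  {f : LinearMap.BilinForm F U} {g : LinearMap.BilinForm F W}
  {Q : QuadraticForm F (U ⊗[F] W)} {M : Subgroup ((U ⊗[F] W) ≃ₗ[F] (U ⊗[F] W))}

theorem Hy.hU1 (h : Hy f g Q M) (u : U) : In M (TensorProduct.map (E1 f u u) 1) := by
  have := h.hU u 1
  rwa [one_smul] at this

theorem Hy.hW1 (h : Hy f g Q M) (w : W) : In M (TensorProduct.map 1 (E1 g w w)) := by
  have := h.hW w 1
  rwa [one_smul] at this

theorem NU1_sq (hf : Alt f) (u : U) :
    (TensorProduct.map (E1 f u u) (1 : Module.End F W)) *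
      (TensorProduct.map (E1 f u u) (1 : Module.End F W)) = 0 := by
  have := NU_sq (W := W) hf u 1
  rwa [one_smul] at this

theorem NW1_sq (hg : Alt g) (w : W) :
    (TensorProduct.map (1 : Module.End F U) (E1 g w w)) *
      (TensorProduct.map (1 : Module.End F U) (E1 g w w)) = 0 := by
  have := NW_sq (U := U) hg w 1
  rwa [one_smul] at this

theorem NU_mul_zero {u v : U} (huv : f u v = 0) (c d : F) :
    (c • TensorProduct.map (E1 f u u) (1 : Module.End F W)) *
      (d • TensorProduct.map (E1 f v v) (1 : Module.End F W)) = 0 := by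
  rw [smul_mul_smul_comm, map_mul', E1_mul, huv, zero_smul, TensorProduct.map_zero_left, smul_zero]

theorem NW_mul_zero {u v : W} (huv : g u v = 0) (c d : F) :
    (c • TensorProduct.map (1 : Module.End F U) (E1 g u u)) *
      (d • TensorProduct.map (1 : Module.End F U) (E1 g v v)) = 0 := by
  rw [smul_mul_smul_comm, map_mul', E1_mul, huv, zero_smul, TensorProduct.map_zero_right,
    smul_zero]

/-- First double commutator. -/
theorem Hy.ext_pair (h : Hy f g Q M) {L : Submodule F W}
    {n : Module.End F (U ⊗[F] W)} (hn : In M n) (hN : Nil (UL U L) n) {u v : U} (huv : f u v = 0)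
    (c : F) : In M (c • (TensorProduct.map (E1 f u v) (co f n u v) +
      TensorProduct.map (E1 f v u) (co f n v u))) := by
  have h1 := hn.comm2 hN (h.hU v (-c)) (NU_sq h.hf v (-c)) (UL_smul_map _ _ L)
    (h.hU u 1) (NU_sq h.hf u 1) (UL_smul_map _ _ L) (NU_mul_zero (h.hf.comm_zero huv) _ _)
    (NU_mul_zero huv _ _)
  refine h1.congr ?_
  rw [one_smul, mul_smul_comm, smul_mul_assoc, smul_mul_assoc, NnN, NnN]
  module

theorem E1_conj (a b x y : W) (m : Module.End F W) :
    E1 g a b * m * E1 g x y = g b (m x) • E1 g a y := by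
  ext z
  simp [smul_smul, mul_comm]

/-- Second double commutator. -/
theorem Hy.ext_root (h : Hy f g Q M) {u v : U} (huv : f u v = 0) {m m' : Module.End F W}
    (hm : ∀ s t, g s (m t) = g (m' s) t)
    (hn : In M (TensorProduct.map (E1 f u v) m + TensorProduct.map (E1 f v u) m'))
    {w t : W} (hwt : g w t = 0) (c : F) :
    In M (c • (TensorProduct.map (E1 f u v) (g t (m w) • E1 g t w + g w (m t) • E1 g w t) +
      TensorProduct.map (E1 f v u) (-(g w (m t) • E1 g t w + g t (m w) • E1 g w t)))) := by
  have hN : Nil (Auv f W u v)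
      (TensorProduct.map (E1 f u v) m + TensorProduct.map (E1 f v u) m') :=
    (h.hf.nil_Auv huv m).add (h.hf.nil_Auv' huv m')
  have h1 := hn.comm2 hN (h.hW w (-c)) (NW_sq h.hg w (-c)) (Auv_smul_map _ _ _ _)
    (h.hW t 1) (NW_sq h.hg t 1) (Auv_smul_map _ _ _ _) (NW_mul_zero hwt _ _)
    (NW_mul_zero (h.hg.comm_zero hwt) _ _)
  refine h1.congr ?_
  have e1 : g t (m' w) = - g w (m t) := by rw [h.hg.neg t, ← hm]
  have e2 : g w (m' t) = - g t (m w) := by rw [h.hg.neg w, ← hm]
  simp only [one_smul, mul_smul_comm, smul_mul_assoc, mul_add, add_mul, map_mul', mul_one,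
    one_mul, E1_conj, e1, e2]
  simp only [TensorProduct.map_add_right, TensorProduct.map_smul_right]
  rw [show -(g w (m t) • E1 g t w + g t (m w) • E1 g w t) =
    (-g w (m t)) • E1 g t w + (-g t (m w)) • E1 g w t by module]
  simp only [TensorProduct.map_add_right, TensorProduct.map_smul_right]
  module

theorem smul_sub_end {V : Type*} [AddCommGroup V] [Module F V] (c : F) (a b : Module.End F V) :
    c • a - c • b = c • (a - b) := by
  module

theorem map_subL (S S' : Module.End F U) (R : Module.End F W) :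
    TensorProduct.map (S - S') R = TensorProduct.map S R - TensorProduct.map S' R := by
  rw [sub_eq_add_neg, TensorProduct.map_add_left, ← neg_one_smul F, TensorProduct.map_smul_left]
  module

theorem map_subR (S : Module.End F U) (R R' : Module.End F W) :
    TensorProduct.map S (R - R') = TensorProduct.map S R - TensorProduct.map S R' := by
  rw [sub_eq_add_neg, TensorProduct.map_add_right, ← neg_one_smul F, TensorProduct.map_smul_right]
  module

theorem smul_comm_id {V : Type*} [AddCommGroup V] [Module F V] (r n : Module.End F V) (c : F) :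
    r * (c • n) - (c • n) * r - r * (c • n) * r = c • (r * n - n * r - r * n * r) := by
  simp only [mul_smul_comm, smul_mul_assoc, smul_sub]

theorem map_one_comm (r X : Module.End F W) (S : Module.End F U) :
    (TensorProduct.map (1 : Module.End F U) r * TensorProduct.map S X -
      TensorProduct.map S X * TensorProduct.map 1 r -
      TensorProduct.map 1 r * TensorProduct.map S X * TensorProduct.map 1 r :
      Module.End F (U ⊗[F] W)) = TensorProduct.map S (r * X - X * r - r * X * r) := by
  simp only [map_mul', mul_one, one_mul]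
  rw [map_subR, map_subR]

theorem map_one_comm' (r X : Module.End F U) (S : Module.End F W) :
    (TensorProduct.map r (1 : Module.End F W) * TensorProduct.map X S -
      TensorProduct.map X S * TensorProduct.map r 1 -
      TensorProduct.map r 1 * TensorProduct.map X S * TensorProduct.map r 1 :
      Module.End F (U ⊗[F] W)) = TensorProduct.map (r * X - X * r - r * X * r) S := by
  simp only [map_mul', mul_one, one_mul]
  rw [map_subL, map_subL]

theorem short_sq (hg : Alt g) {w s : W} (hsw : g s w = 0) :
    (E1 g w s + E1 g s w) * (E1 g w s + E1 g s w) = 0 := by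
  have hws := hg.comm_zero hsw
  simp [add_mul, mul_add, E1_mul, hsw, hws, hg.alt]

/-- Root elements from `In`. -/
theorem Hy.mem_Ts_of_In (h : Hy f g Q M) {x x' : U} {y y' : W} (hp : f x x' * g y y' = 0) {p : F}
    (hp0 : p ≠ 0) (hI : ∀ c : F, In M (c • (p • rt Q (x ⊗ₜ[F] y) (x' ⊗ₜ y')))) :
    x' ⊗ₜ y' ∈ Ts Q M (x ⊗ₜ y) := by
  refine TenSp.mem_Ts_of_In (h.Qp x y) (h.Qp x' y') (by rw [h.pol, hp]) fun c => ?_
  have := hI (c * p⁻¹)
  rwa [smul_smul, mul_assoc, inv_mul_cancel₀ hp0, mul_one] at this

/-- The case `p + q ≠ 0`. -/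
theorem Hy.gamma_case (h : Hy f g Q M) {u v : U} (huv : f u v = 0) {w t : W} (hwt : g w t = 0)
    (ht : t ∉ Submodule.span F {w}) {p q : F} (hpq : p + q ≠ 0)
    (hn : ∀ c : F, In M (c • (TensorProduct.map (E1 f u v) (p • E1 g t w + q • E1 g w t) +
      TensorProduct.map (E1 f v u) (-(q • E1 g t w + p • E1 g w t))))) :
    u ⊗ₜ w ∈ Ts Q M (v ⊗ₜ w) := by
  obtain ⟨s, hst, hsw⟩ := h.hg.sep1 ht
  have hws := h.hg.comm_zero hsw
  have htw := h.hg.comm_zero hwt
  have hts : g t s = -1 := by rw [h.hg.neg, hst]
  refine h.mem_Ts_of_In (by rw [h.hg.alt, mul_zero]) hpq fun c => ?_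
  have hN : Nil (Auv f W u v)
      (c • (TensorProduct.map (E1 f u v) (p • E1 g t w + q • E1 g w t) +
      TensorProduct.map (E1 f v u) (-(q • E1 g t w + p • E1 g w t)))) :=
    ((h.hf.nil_Auv huv _).add (h.hf.nil_Auv' huv _)).smul c
  have h1 := h.shortW hws 1
  rw [one_smul] at h1
  have h2 := (hn c).comm hN h1 (by rw [map_mul', short_sq h.hg hsw,
    TensorProduct.map_zero_right]) (Auv_map _ _ _)
  refine h2.congr ?_
  have e1 : (E1 g w s + E1 g s w) * (p • E1 g t w + q • E1 g w t) -
      (p • E1 g t w + q • E1 g w t) * (E1 g w s + E1 g s w) -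
      (E1 g w s + E1 g s w) * (p • E1 g t w + q • E1 g w t) * (E1 g w s + E1 g s w) =
      (p + q) • E1 g w w := by
    simp only [add_mul, mul_add, smul_mul_assoc, mul_smul_comm, E1_mul, hsw, hws, htw, hwt, hst,
      hts, h.hg.alt, zero_smul, smul_zero, one_smul, add_zero, zero_add, sub_zero, mul_zero,
      zero_mul, smul_smul, neg_smul, mul_neg, mul_one]
    module
  have e2 : (E1 g w s + E1 g s w) * (-(q • E1 g t w + p • E1 g w t)) -
      (-(q • E1 g t w + p • E1 g w t)) * (E1 g w s + E1 g s w) -
      (E1 g w s + E1 g s w) * (-(q • E1 g t w + p • E1 g w t)) * (E1 g w s + E1 g s w) =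
      (-(p + q)) • E1 g w w := by
    simp only [add_mul, mul_add, smul_mul_assoc, mul_smul_comm, E1_mul, hsw, hws, htw, hwt, hst,
      hts, h.hg.alt, zero_smul, smul_zero, one_smul, add_zero, zero_add, sub_zero, mul_zero,
      zero_mul, smul_smul, neg_smul, mul_neg, mul_one, neg_mul, neg_zero]
    module
  rw [smul_comm_id, mul_add, add_mul, add_mul]
  have e3 : ∀ a b c d x y : Module.End F (U ⊗[F] W),
      a + b - (c + d) - (x + y) = (a - c - x) + (b - d - y) := by
    intro a b c d x y
    abel
  rw [e3, map_one_comm, map_one_comm, e1, e2, h.rt_eq, TensorProduct.map_smul_right,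
    TensorProduct.map_smul_right]
  module

/-- The case `q = - p` in odd characteristic. -/
theorem Hy.beta_case (h : Hy f g Q M) (h2 : (2 : F) ≠ 0) {u v : U} (huv : f u v = 0)
    (hu : v ∉ Submodule.span F {u}) {w t : W}
    (hn : ∀ c : F, In M (c • TensorProduct.map (E1 f u v + E1 f v u) (E1 g t w - E1 g w t))) :
    u ⊗ₜ t ∈ Ts Q M (u ⊗ₜ w) := by
  obtain ⟨s, hsv, hsu⟩ := h.hf.sep1 hu
  have hus := h.hf.comm_zero hsu
  have hvu := h.hf.comm_zero huv
  have hvs : f v s = -1 := by rw [h.hf.neg, hsv]
  refine h.mem_Ts_of_In (by rw [h.hf.alt, zero_mul]) h2 fun c => ?_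
  have hN : Nil (Auv f W u v)
      (c • TensorProduct.map (E1 f u v + E1 f v u) (E1 g t w - E1 g w t)) := by
    rw [TensorProduct.map_add_left]
    exact ((h.hf.nil_Auv huv _).add (h.hf.nil_Auv' huv _)).smul c
  have h1 := h.shortU hus 1
  rw [one_smul] at h1
  have h3 := (hn c).comm hN h1 (by rw [map_mul', short_sq h.hf hsu,
    TensorProduct.map_zero_left]) (by
      intro x hx
      rw [mem_Auv] at hx ⊢
      rw [TensorProduct.map_add_left, LinearMap.add_apply, map_E1_left, map_E1_left, map_add,
        map_add, kU_tmul, kU_tmul, kU_tmul, kU_tmul, hx.1, map_zero, h.hf.alt, hvu, zero_smul,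
        smul_zero, smul_zero, add_zero]
      exact ⟨rfl, rfl⟩)
  refine h3.congr ?_
  have e1 : (E1 f u s + E1 f s u) * (E1 f u v + E1 f v u) -
      (E1 f u v + E1 f v u) * (E1 f u s + E1 f s u) -
      (E1 f u s + E1 f s u) * (E1 f u v + E1 f v u) * (E1 f u s + E1 f s u) =
      (2 : F) • E1 f u u := by
    simp only [add_mul, mul_add, smul_mul_assoc, mul_smul_comm, E1_mul, hsu, hus, hvu, huv, hsv,
      hvs, h.hf.alt, zero_smul, smul_zero, one_smul, add_zero, zero_add, sub_zero, mul_zero,
      zero_mul, smul_smul, neg_smul, mul_neg, mul_one]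
    module
  rw [smul_comm_id, map_one_comm', e1, h.rt_eq, TensorProduct.map_smul_left, map_subR]

/-! ### Characteristic 2 -/

/-- `1 + c (u ∧ v) ⊗ (w ∧ t) ∈ M` for all `c`. -/
def Del (f : LinearMap.BilinForm F U) (g : LinearMap.BilinForm F W)
    (M : Subgroup ((U ⊗[F] W) ≃ₗ[F] (U ⊗[F] W))) (u v : U) (w t : W) : Prop :=
  ∀ c : F, In M (c • TensorProduct.map (E1 f u v + E1 f v u) (E1 g w t + E1 g t w))

theorem Del.swapU {u v : U} {w t : W} (h : Del f g M u v w t) : Del f g M v u w t := by
  intro c
  have := h c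
  rwa [add_comm (E1 f u v)] at this

theorem Del.swapW {u v : U} {w t : W} (h : Del f g M u v w t) : Del f g M u v t w := by
  intro c
  have := h c
  rwa [add_comm (E1 g w t)] at this

theorem wedge_sq (hf : Alt f) {u v : U} (huv : f u v = 0) :
    (E1 f u v + E1 f v u) * (E1 f u v + E1 f v u) = 0 := short_sq hf (hf.comm_zero huv)

/-- Change `w`. -/
theorem Hy.del_W (h : Hy f g Q M) {u v : U} {w t : W} (huv : f u v = 0)
    (hw : w ∉ Submodule.span F {t}) (hD : Del f g M u v w t) {s : W} (hst : g s t = 0) :
    Del f g M u v s t := by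
  have key : ∀ s : W, g s t = 0 → g s w ≠ 0 → Del f g M u v s t := by
    intro s hst hsw c
    have hts := h.hg.comm_zero hst
    have hN : Nil (Auv f W u v)
        (TensorProduct.map (E1 f u v + E1 f v u) (E1 g w t + E1 g t w)) := by
      rw [TensorProduct.map_add_left]
      exact (h.hf.nil_Auv huv _).add (h.hf.nil_Auv' huv _)
    have h1 := hD (c * (g s w)⁻¹)
    have h2 := h1.comm (hN.smul _) (h.hW1 s) (NW1_sq h.hg s) (Auv_map _ _ _)
    refine h2.congr ?_
    have e1 : E1 g s s * (E1 g w t + E1 g t w) - (E1 g w t + E1 g t w) * E1 g s s -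
        E1 g s s * (E1 g w t + E1 g t w) * E1 g s s = g s w • (E1 g s t + E1 g t s) := by
      have hws : g w s = - g s w := h.hg.neg w s
      simp only [add_mul, mul_add, E1_mul, hst, hts, hws, zero_smul, add_zero, smul_mul_assoc,
        smul_zero, zero_add, sub_zero]
      module
    rw [smul_comm_id, map_one_comm, e1, TensorProduct.map_smul_right, smul_smul, mul_assoc,
      inv_mul_cancel₀ hsw, mul_one]
  by_cases hsw : g s w = 0
  · obtain ⟨s0, h0, h0'⟩ := h.hg.sep1 hw
    have h1 := key (s + s0) (by rw [map_add, LinearMap.add_apply, hst, h0', add_zero])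
      (by rw [map_add, LinearMap.add_apply, hsw, h0, zero_add]; exact one_ne_zero)
    have h2 := key s0 h0' (by rw [h0]; exact one_ne_zero)
    intro c
    have e0 : (TensorProduct.map (E1 f u v + E1 f v u) (E1 g s0 t + E1 g t s0) :
        Module.End F (U ⊗[F] W)) * TensorProduct.map (E1 f u v + E1 f v u)
          (E1 g s0 t + E1 g t s0) = 0 := by
      rw [map_mul', wedge_sq h.hf huv, TensorProduct.map_zero_left]
    have e0' : (TensorProduct.map (E1 f u v + E1 f v u) (E1 g (s + s0) t + E1 g t (s + s0)) :
        Module.End F (U ⊗[F] W)) * TensorProduct.map (E1 f u v + E1 f v u)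
          (E1 g s0 t + E1 g t s0) = 0 := by
      rw [map_mul', wedge_sq h.hf huv, TensorProduct.map_zero_left]
    have h3 := (h1 c).sub (h2 c) (by rw [smul_mul_smul_comm, e0, smul_zero])
      (by rw [smul_mul_smul_comm, e0', smul_zero])
    refine h3.congr ?_
    rw [smul_sub_end, ← map_subR, E1_add_left, E1_add_right]
    congr 2
    abel
  · exact key s hst hsw

/-- Change `u`. -/
theorem Hy.del_U (h : Hy f g Q M) {u v : U} {w t : W} (hwt : g w t = 0)
    (hu : u ∉ Submodule.span F {v}) (hD : Del f g M u v w t) {s : U} (hst : f s v = 0) :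
    Del f g M s v w t := by
  have key : ∀ s : U, f s v = 0 → f s u ≠ 0 → Del f g M s v w t := by
    intro s hst hsu c
    have hts := h.hf.comm_zero hst
    have h1 := hD (c * (f s u)⁻¹)
    -- the conjugate of `h1` by `1 + E1 s s ⊗ 1`
    have h2 := h1.conj' (h.hU1 s) (NU1_sq h.hf s)
    have hsq : ∀ (X Y : Module.End F U) (a b : F),
        (a • TensorProduct.map X (E1 g w t + E1 g t w) : Module.End F (U ⊗[F] W)) *
        (b • TensorProduct.map Y (E1 g w t + E1 g t w)) = 0 := by
      intro X Y a b
      rw [smul_mul_smul_comm, map_mul', wedge_sq h.hg hwt, TensorProduct.map_zero_right, smul_zero]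
    have hus : f u s = - f s u := h.hf.neg u s
    have e1 : (1 + E1 f s s) * (E1 f u v + E1 f v u) * (1 - E1 f s s) =
        (E1 f u v + E1 f v u) + f s u • (E1 f s v + E1 f v s) := by
      simp only [add_mul, mul_add, mul_sub, one_mul, mul_one, E1_mul, hst, hts, hus, zero_smul,
        add_zero, smul_mul_assoc, smul_zero, zero_add, sub_zero]
      module
    have e2 : (1 + TensorProduct.map (E1 f s s) 1) *
        ((c * (f s u)⁻¹) • TensorProduct.map (E1 f u v + E1 f v u) (E1 g w t + E1 g t w)) *
        (1 - TensorProduct.map (E1 f s s) (1 : Module.End F W)) =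
        (c * (f s u)⁻¹) • TensorProduct.map ((E1 f u v + E1 f v u) +
          f s u • (E1 f s v + E1 f v s)) (E1 g w t + E1 g t w) := by
      rw [← e1]
      have e3 : (1 : Module.End F (U ⊗[F] W)) = TensorProduct.map 1 1 :=
        TensorProduct.map_one.symm
      rw [e3, ← TensorProduct.map_add_left, ← map_subL, mul_smul_comm, smul_mul_assoc, map_mul',
        map_mul', one_mul, mul_one]
    rw [e2] at h2
    have h3 := h2.sub h1 (hsq _ _ _ _) (hsq _ _ _ _)
    refine h3.congr ?_
    rw [smul_sub_end, ← map_subL, add_sub_cancel_left, TensorProduct.map_smul_left, smul_smul,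
      mul_assoc, inv_mul_cancel₀ hsu, mul_one]
  by_cases hsu : f s u = 0
  · obtain ⟨s0, h0, h0'⟩ := h.hf.sep1 hu
    have h1 := key (s + s0) (by rw [map_add, LinearMap.add_apply, hst, h0', add_zero])
      (by rw [map_add, LinearMap.add_apply, hsu, h0, zero_add]; exact one_ne_zero)
    have h2 := key s0 h0' (by rw [h0]; exact one_ne_zero)
    intro c
    have hsq : ∀ (X Y : Module.End F U) (a b : F),
        (a • TensorProduct.map X (E1 g w t + E1 g t w) : Module.End F (U ⊗[F] W)) *
        (b • TensorProduct.map Y (E1 g w t + E1 g t w)) = 0 := by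
      intro X Y a b
      rw [smul_mul_smul_comm, map_mul', wedge_sq h.hg hwt, TensorProduct.map_zero_right, smul_zero]
    have h3 := (h1 c).sub (h2 c) (hsq _ _ _ _) (hsq _ _ _ _)
    refine h3.congr ?_
    rw [smul_sub_end, ← map_subL, E1_add_left, E1_add_right]
    congr 2
    abel
  · exact key s hst hsu

/-- The case of characteristic 2. -/
theorem Hy.beta_of_del (h : Hy f g Q M) (hdW : 5 ≤ Module.finrank F W)
    {u v : U} {w t : W} (huv : f u v = 0) (hu : u ∉ Submodule.span F {v}) (hv : v ≠ 0)
    (hwt : g w t = 0) (hw : w ∉ Submodule.span F {t}) (ht : t ≠ 0) (hD : Del f g M u v w t) :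
    Beta g Q M := by
  -- `v'`
  obtain ⟨v', hv', hv'v⟩ := h.hf.sep1 hu
  have hD1 : Del f g M v' v w t := h.del_U hwt hu hD hv'v
  obtain ⟨y, hy1, hy2, hy3⟩ := h.hg.exists_perp_not_mem hdW w t
  have hD2 : Del f g M v' v y t := h.del_W hv'v hw hD1 hy2
  have hty : t ∉ Submodule.span F {y} := by
    intro hmem
    obtain ⟨c, hc⟩ := Submodule.mem_span_singleton.1 hmem
    have hc0 : c ≠ 0 := by rintro rfl; rw [zero_smul] at hc; exact ht hc.symm
    apply hy3
    have : y = c⁻¹ • t := by rw [← hc, smul_smul, inv_mul_cancel₀ hc0, one_smul]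
    rw [this]
    exact Submodule.smul_mem _ _ (Submodule.subset_span (by simp))
  have hwty : w ∉ Submodule.span F {t, y} := by
    intro hmem
    obtain ⟨a, b, hab⟩ := Submodule.mem_span_pair.1 hmem
    by_cases hb : b = 0
    · rw [hb, zero_smul, add_zero] at hab
      exact hw (Submodule.mem_span_singleton.2 ⟨a, hab⟩)
    · apply hy3
      refine Submodule.mem_span_pair.2 ⟨b⁻¹, -(b⁻¹ * a), ?_⟩
      rw [← hab, smul_add, smul_smul, smul_smul, inv_mul_cancel₀ hb]
      module
  obtain ⟨y', hy', hy't, hy'y⟩ := h.hg.sep2 hwty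
  have hD3 : Del f g M v' v y' y := h.del_W hv'v hty hD2.swapW hy'y
  have hyw : g w y = 0 := h.hg.comm_zero hy1
  have hyt : g t y = 0 := h.hg.comm_zero hy2
  have hty' : g t y' = 0 := h.hg.comm_zero hy't
  have hyy' : g y y' = 0 := h.hg.comm_zero hy'y
  have htw : g t w = 0 := h.hg.comm_zero hwt
  have hwy' : g w y' = -1 := by rw [h.hg.neg, hy']
  have hvu : f v u = 0 := h.hf.comm_zero huv
  have hvv' : f v v' = 0 := h.hf.comm_zero hv'v
  have huv' : f u v' = -1 := by rw [h.hf.neg, hv']
  refine h.beta_of (u := v) (w := y) (w' := t) hv ?_ hty ?_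
  · exact ne_of_not_mem (fun hmem => hy3 ((Submodule.span_mono (by simp)) hmem) :
      y ∉ Submodule.span F {w})
  refine h.mem_Ts_of_In (p := 1) (by rw [h.hf.alt, zero_mul]) one_ne_zero fun c => ?_
  rw [one_smul]
  have eS : (E1 f u v + E1 f v u) * (E1 f v' v + E1 f v v') = -E1 f v v := by
    simp only [add_mul, mul_add, E1_mul, huv, hvu, hvv', huv', h.hf.alt, zero_smul, add_zero,
      zero_add, neg_smul, one_smul]
  have eS' : (E1 f v' v + E1 f v v') * (E1 f u v + E1 f v u) = E1 f v v := by
    simp only [add_mul, mul_add, E1_mul, huv, hvu, hvv', hv'v, hv', h.hf.alt, zero_smul, add_zero,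
      zero_add, neg_smul, one_smul]
  have eR : (E1 g w t + E1 g t w) * (E1 g y' y + E1 g y y') = -E1 g t y := by
    simp only [add_mul, mul_add, E1_mul, hyw, hyt, hwy', hty', zero_smul, add_zero,
      zero_add, neg_smul, one_smul]
  have eR' : (E1 g y' y + E1 g y y') * (E1 g w t + E1 g t w) = E1 g y t := by
    simp only [add_mul, mul_add, E1_mul, hy1, hy2, hy', hy't, zero_smul, add_zero,
      zero_add, neg_smul, one_smul]
  have eSS : E1 f v v * (E1 f u v + E1 f v u) = 0 := by
    simp only [mul_add, E1_mul, hvu, h.hf.alt, zero_smul, add_zero]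
  have eSS' : E1 f v v * (E1 f v' v + E1 f v v') = 0 := by
    simp only [mul_add, E1_mul, hvv', h.hf.alt, zero_smul, add_zero]
  have h5 := (hD c).comm4 (hD3 1)
    (by rw [smul_mul_smul_comm, map_mul', wedge_sq h.hf huv, TensorProduct.map_zero_left,
      smul_zero])
    (by rw [smul_mul_smul_comm, map_mul', wedge_sq h.hf hv'v, TensorProduct.map_zero_left,
      smul_zero])
    (by rw [smul_mul_smul_comm, map_mul', eS, smul_mul_smul_comm, map_mul', neg_mul, eSS,
      neg_zero, TensorProduct.map_zero_left, smul_zero])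
    (by rw [smul_mul_smul_comm, map_mul', eS', smul_mul_smul_comm, map_mul', eSS',
      TensorProduct.map_zero_left, smul_zero])
  refine h5.congr ?_
  rw [smul_mul_smul_comm, smul_mul_smul_comm, map_mul', map_mul', eS, eR, eS', eR', h.rt_eq]
  have e1 : (TensorProduct.map (-E1 f v v) (-E1 g t y) : Module.End F (U ⊗[F] W)) =
      TensorProduct.map (E1 f v v) (E1 g t y) := by
    rw [← neg_one_smul F (E1 f v v), ← neg_one_smul F (E1 g t y), TensorProduct.map_smul_left,
      TensorProduct.map_smul_right, smul_smul]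
    norm_num
  rw [e1]
  module

/-! ### The main result of the section -/

theorem Alt.exists_perp1 (hf : Alt f) (hd : 3 ≤ Module.finrank F U) {x : U} (hx : x ≠ 0) :
    ∃ s, f s x = 0 ∧ s ∉ Submodule.span F {x} := by
  by_contra hcon
  push Not at hcon
  have h1 : perp f (Submodule.span F {x}) ≤ Submodule.span F {x} := fun z hz =>
    hcon z (hf.comm_zero (hz x (Submodule.mem_span_singleton_self x)))
  have h2 := Submodule.finrank_mono h1
  have h3 := hf.finrank_perp (Submodule.span F {x})
  have h4 := finrank_span_singleton (K := F) hx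
  omega

theorem Hy.ext_four (h : Hy f g Q M) (hdU : 3 ≤ Module.finrank F U)
    (hdW : 5 ≤ Module.finrank F W) (hb : ¬ Beta g Q M) {L : Submodule F W}
    (hL : perp g L = L) (hL0 : ∃ x ∈ L, x ≠ 0) {n : Module.End F (U ⊗[F] W)} (hn : In M n)
    (hN : Nil (UL U L) n) : ∃ ν : Module.End F W, n = TensorProduct.map 1 ν := by
  -- the claim for independent pairs
  have claim : ∀ u v : U, f u v = 0 → u ∉ Submodule.span F {v} → co f n u v = 0 := by
    intro u v huv hu
    by_contra hm0
    have hv0 : v ≠ 0 := by
      rintro rfl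
      apply hm0
      ext t
      rw [co_apply, TensorProduct.zero_tmul, map_zero, map_zero, LinearMap.zero_apply]
    obtain ⟨x, hxL, hx0⟩ := hL0
    have hmx : co f n u v x = 0 := by
      rw [co_apply, hN.ker _ (tmul_mem_UL v hxL), map_zero]
    obtain ⟨w, hw⟩ : ∃ w, co f n u v w ∉ Submodule.span F {w} := by
      by_contra hcon
      push Not at hcon
      exact hm0 (eq_zero_of_scalar hcon hx0 hmx)
    have hw0 : w ≠ 0 := by
      rintro rfl
      rw [map_zero] at hw
      exact hw (Submodule.zero_mem _)
    obtain ⟨t, htw, ht, hp⟩ : ∃ t, g t w = 0 ∧ t ∉ Submodule.span F {w} ∧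
        g t (co f n u v w) ≠ 0 := by
      by_contra hcon
      push Not at hcon
      exact hw (h.hg.mem_span_of_perp (by omega) hcon)
    have ht0 : t ≠ 0 := ne_of_not_mem ht
    have hwt := h.hg.comm_zero htw
    have h1 := h.ext_root huv (h.co_adj hL hn hN u v) (by
      have := h.ext_pair hn hN huv 1
      rwa [one_smul] at this) hwt
    set p := g t (co f n u v w) with hpdef
    set q := g w (co f n u v t) with hqdef
    have hv' : v ∉ Submodule.span F {u} := not_mem_symm hu hv0
    by_cases hq : q = 0
    · apply hb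
      refine h.beta_of_alpha hdU (u := v) (u' := u) (w := w) (w' := t) hv0 hw0 hu ht ?_
      refine h.mem_Ts_of_In (by rw [hwt, mul_zero]) hp fun c => ?_
      refine (h1 c).congr ?_
      rw [hq, h.rt_eq]
      simp only [zero_smul, add_zero, zero_add]
      rw [← neg_smul, TensorProduct.map_smul_right, TensorProduct.map_smul_right]
      module
    by_cases hpq : p + q = 0
    · have hqp : q = -p := (neg_eq_of_add_eq_zero_right hpq).symm
      have h3 : ∀ c : F, In M (c • TensorProduct.map (E1 f u v + E1 f v u)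
          (E1 g t w - E1 g w t)) := by
        intro c
        refine (h1 (c * p⁻¹)).congr ?_
        have e1 : p • E1 g t w + q • E1 g w t = p • (E1 g t w - E1 g w t) := by
          rw [hqp]; module
        have e2 : -(q • E1 g t w + p • E1 g w t) = p • (E1 g t w - E1 g w t) := by
          rw [hqp]; module
        rw [e1, e2, TensorProduct.map_smul_right, TensorProduct.map_smul_right, ← smul_add,
          smul_smul, mul_assoc, inv_mul_cancel₀ hp, mul_one, TensorProduct.map_add_left]
      by_cases h2 : (2 : F) = 0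
      · apply hb
        refine h.beta_of_del hdW huv hu hv0 hwt (not_mem_symm ht hw0) ht0 fun c => ?_
        refine (h3 c).congr ?_
        have e1 : E1 g t w - E1 g w t = E1 g w t + E1 g t w := by
          have : (2 : F) • E1 g w t = 0 := by rw [h2, zero_smul]
          rw [two_smul] at this
          rw [← sub_eq_zero]
          have e2 : E1 g t w - E1 g w t - (E1 g w t + E1 g t w) = -(E1 g w t + E1 g w t) := by abel
          rw [e2, this, neg_zero]
        rw [e1]
      · apply hb
        have hu0 : u ≠ 0 := ne_of_not_mem hu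
        exact h.beta_of hu0 hw0 ht (h.beta_case h2 huv hv' h3)
    · apply hb
      exact h.beta_of_gamma hdU hv0 hw0 hu (h.gamma_case huv hwt ht hpq h1)
  have hU0 : ∃ u : U, u ≠ 0 := by
    by_contra hcon
    push Not at hcon
    have : Subsingleton U := ⟨fun a b => by rw [hcon a, hcon b]⟩
    have := Module.finrank_zero_of_subsingleton (R := F) (M := U)
    omega
  refine h.hf.eq_map_one hU0 ?_
  intro z t u hu
  by_cases huz : u ∈ Submodule.span F {z}
  · by_cases hz : z = 0
    · rw [hz, TensorProduct.zero_tmul, map_zero, map_zero]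
    obtain ⟨s, hs, hs'⟩ := h.hf.exists_perp1 hdU hz
    have h1 := claim s z hs hs'
    have h2 := claim (u + s) z (by rw [map_add, LinearMap.add_apply, hu, hs, add_zero]) (by
      intro hmem
      apply hs'
      have := Submodule.sub_mem _ hmem huz
      rwa [add_sub_cancel_left] at this)
    have h3 := LinearMap.congr_fun h1 t
    have h4 := LinearMap.congr_fun h2 t
    rw [co_apply, LinearMap.zero_apply] at h3 h4
    rw [kU_add, h3, add_zero] at h4
    exact h4
  · exact LinearMap.congr_fun (claim u z hu huz) t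

end Cfsg.Agent.H887.TenSp
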