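import Mathlib
import Cfsg.Agent.H887.TenSp.ExtractTwo

/-!
The stabilisers of `U ⊗ L` in `M`.
-/

set_option autoImplicit false
set_option linter.unusedSectionVars false
set_option linter.unusedSimpArgs false

namespace Cfsg.Agent.H887.TenSp

open TensorProduct QuadraticMap Cfsg.Agent.LieClassical.OrthCore
  Cfsg.Agent.LieClassical.OrthTrans Cfsg.Agent.ClassicalGeometry.OrthAutBasic
  Cfsg.Agent.H887.SiegelMethod

variable {F U W : Type*} [Field F] [AddCommGroup U] [Module F U] [AddCommGroup W] [Module F W]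
  [FiniteDimensional F U] [FiniteDimensional F W]
  {f : LinearMap.BilinForm F U} {g : LinearMap.BilinForm F W}
  {Q : QuadraticForm F (U ⊗[F] W)} {M : Subgroup ((U ⊗[F] W) ≃ₗ[F] (U ⊗[F] W))}

/-- The elements `A ⊗ B`. -/
def Sten (F U W : Type*) [Field F] [AddCommGroup U] [Module F U] [AddCommGroup W] [Module F W] :
    Subgroup ((U ⊗[F] W) ≃ₗ[F] (U ⊗[F] W)) where
  carrier := {s | ∃ (A : U ≃ₗ[F] U) (B : W ≃ₗ[F] W), ∀ x y, s (x ⊗ₜ y) = A x ⊗ₜ B y}
  one_mem' := ⟨1, 1, fun x y => rfl⟩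
  mul_mem' := by
    rintro s s' ⟨A, B, h⟩ ⟨A', B', h'⟩
    refine ⟨A * A', B * B', fun x y => ?_⟩
    show s (s' (x ⊗ₜ y)) = _
    rw [h', h]
    rfl
  inv_mem' := by
    rintro s ⟨A, B, h⟩
    refine ⟨A⁻¹, B⁻¹, fun x y => ?_⟩
    apply s.injective
    rw [h]
    have e1 : A (A⁻¹ x) = x := LinearEquiv.apply_symm_apply A x
    have e2 : B (B⁻¹ y) = y := LinearEquiv.apply_symm_apply B y
    rw [e1, e2]
    exact LinearEquiv.apply_symm_apply s _

theorem mem_Sten {s : (U ⊗[F] W) ≃ₗ[F] (U ⊗[F] W)} :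
    s ∈ Sten F U W ↔ ∃ (A : U ≃ₗ[F] U) (B : W ≃ₗ[F] W), ∀ x y, s (x ⊗ₜ y) = A x ⊗ₜ B y := Iff.rfl

/-- The elements of `M` fixing `U ⊗ L` pointwise are of the form `1 ⊗ (1 + ν)`. -/
def LZ (g : LinearMap.BilinForm F W) (M : Subgroup ((U ⊗[F] W) ≃ₗ[F] (U ⊗[F] W))) : Prop :=
  ∀ L : Submodule F W, perp g L = L → ∀ s ∈ M, (∀ z : U, ∀ x ∈ L, s (z ⊗ₜ x) = z ⊗ₜ x) →
    ∃ ν : Module.End F W, ∀ z t, s (z ⊗ₜ t) = z ⊗ₜ (t + ν t)

theorem Hy.LZ_of (h : Hy f g Q M) (hU : 2 ≤ Module.finrank F U) (hW : 5 ≤ Module.finrank F W)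
    (hq : 3 ≤ Module.finrank F U ∨ ∃ c : F, c ≠ 0 ∧ c ≠ 1) (hb : ¬ Beta g Q M) :
    LZ g M := by
  intro L hL s hs hfix
  have hL0 : ∃ x ∈ L, x ≠ 0 := by
    by_contra hcon
    push Not at hcon
    have h1 : L = ⊥ := (Submodule.eq_bot_iff _).2 hcon
    have h2 := h.hg.finrank_perp L
    rw [hL, h1, finrank_bot] at h2
    omega
  let n : Module.End F (U ⊗[F] W) := (s : (U ⊗[F] W) →ₗ[F] (U ⊗[F] W)) - 1
  have hn' : ∀ v, n v = s v - v := fun v => rfl
  have hn : In M n := ⟨s, hs, fun v => by rw [hn']; abel⟩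
  have hN : Nil (UL U L) n := by
    constructor
    · intro v
      rw [mem_UL_iff h.hg, hL]
      intro w hw
      apply h.hf.nd' _ fun z => ?_
      rw [← h.polW, hn', sub_eq_add_neg, polar_add_right, polar_neg_right]
      have h1 := polar_map (h.hO hs) (z ⊗ₜ w) v
      rw [hfix z w hw] at h1
      rw [h1, add_neg_cancel]
    · intro v hv
      have h1 : UL U L ≤ LinearMap.ker n := by
        refine Submodule.span_le.2 ?_
        rintro _ ⟨z, t, ht, rfl⟩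
        show n (z ⊗ₜ t) = 0
        rw [hn', hfix z t ht, sub_self]
      exact h1 hv
  have h1 : ∃ ν : Module.End F W, n = TensorProduct.map 1 ν := by
    by_cases h3 : 3 ≤ Module.finrank F U
    · exact h.ext_four h3 hW hb hL hL0 hn hN
    · exact h.ext_two (by omega) (hq.resolve_left h3) hb hL0 hn hN
  obtain ⟨ν, hν⟩ := h1
  refine ⟨ν, fun z t => ?_⟩
  have h2 := hn' (z ⊗ₜ t)
  rw [hν, map_tmul, Module.End.one_apply] at h2
  rw [TensorProduct.tmul_add, h2]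
  abel

/-! ### The carrier lemma -/

/-- `r` maps `U ⊗ x` to `U ⊗ w` by `A`. -/
structure Carry (f : LinearMap.BilinForm F U) (g : LinearMap.BilinForm F W)
    (r : (U ⊗[F] W) ≃ₗ[F] (U ⊗[F] W)) (x w : W) (A : U ≃ₗ[F] U) (d : F) : Prop where
  hw : w ≠ 0
  hd : d ≠ 0
  hA : ∀ z, r (z ⊗ₜ x) = A z ⊗ₜ w
  hN : ∀ v, r (kW U g x v ⊗ₜ x) = d • (kW U g w (r v) ⊗ₜ w)
  hf : ∀ z z', f (A z) (A z') = d * f z z'

theorem actW_tv (hg : Alt g) (x : W) (c : F) (v : U ⊗[F] W) :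
    actW U (tv hg x c) v = v + c • (kW U g x v ⊗ₜ x) := by
  induction v with
  | zero => simp
  | tmul z t =>
    rw [actW_tmul, tv_apply, TensorProduct.tmul_add, kW_tmul, TensorProduct.tmul_smul,
      ← TensorProduct.smul_tmul', smul_smul]
  | add v v' hv hv' =>
    rw [map_add, hv, hv', map_add, TensorProduct.add_tmul, smul_add]
    abel

theorem actU_tv (hf : Alt f) (u : U) (c : F) (v : U ⊗[F] W) :
    actU W (tv hf u c) v = v + c • (u ⊗ₜ kU f W u v) := by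
  induction v with
  | zero => simp
  | tmul z t =>
    rw [actU_tmul, tv_apply, TensorProduct.add_tmul, kU_tmul, TensorProduct.tmul_smul,
      ← TensorProduct.smul_tmul', smul_smul]
  | add v v' hv hv' =>
    rw [map_add, hv, hv', map_add, TensorProduct.tmul_add, smul_add]
    abel

theorem Sp2.carry (h : Sp2 f g Q) (hdim : Module.finrank F U < Module.finrank F W)
    (hU0 : ∃ u : U, u ≠ 0) {r : (U ⊗[F] W) ≃ₗ[F] (U ⊗[F] W)} (hr : r ∈ O Q) {x : W} (hx : x ≠ 0)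
    {c : F} (hc : c ≠ 0) {Y : Module.End F U} {Z : Module.End F W}
    (hK : ∀ z t, (r * actW U (tv h.hg x c) * r⁻¹) (z ⊗ₜ t) = Y z ⊗ₜ Z t) :
    ∃ (w : W) (A : U ≃ₗ[F] U) (d : F), Carry f g r x w A d := by
  have hrr : ∀ v, r (r⁻¹ v) = v := fun v => LinearEquiv.apply_symm_apply r v
  have hrr' : ∀ v, r⁻¹ (r v) = v := fun v => LinearEquiv.symm_apply_apply r v
  have hKv : ∀ v, (r * actW U (tv h.hg x c) * r⁻¹) v = v + c • r (kW U g x (r⁻¹ v) ⊗ₜ x) := by
    intro v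
    show r (actW U (tv h.hg x c) (r⁻¹ v)) = _
    rw [actW_tv, map_add, hrr, map_smul]
  -- `Y` is scalar
  have hY : ∀ z, Y z ∈ Submodule.span F {z} := by
    intro z
    by_contra hz
    have hz0 : z ≠ 0 := by
      rintro rfl
      rw [map_zero] at hz
      exact hz (Submodule.zero_mem _)
    let φ : W →ₗ[F] U := kW U g x ∘ₗ (r⁻¹ : (U ⊗[F] W) ≃ₗ[F] (U ⊗[F] W)).toLinearMap ∘ₗ
      TensorProduct.mk F U W z
    have hφ : ∀ t, φ t = kW U g x (r⁻¹ (z ⊗ₜ t)) := fun t => rfl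
    have hinj : Function.Injective φ := by
      rw [← LinearMap.ker_eq_bot, LinearMap.ker_eq_bot']
      intro t ht
      have h1 := hKv (z ⊗ₜ t)
      rw [hK, ← hφ, ht, TensorProduct.zero_tmul, map_zero, smul_zero, add_zero] at h1
      have h2 : Y z ⊗ₜ[F] Z t + z ⊗ₜ (-t) = 0 := by
        rw [h1, TensorProduct.tmul_neg, add_neg_cancel]
      obtain ⟨-, h3⟩ := h.hf.indep_zero hz hz0 h2
      exact neg_eq_zero.1 h3
    have := LinearMap.finrank_le_finrank_of_injective hinj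
    omega
  obtain ⟨z0, hz0⟩ := hU0
  obtain ⟨κ, hκ⟩ := Submodule.mem_span_singleton.1 (hY z0)
  have hYκ : ∀ z, Y z = κ • z := by
    have h1 : Y - κ • 1 = 0 := by
      refine eq_zero_of_scalar (fun w => ?_) hz0 ?_
      · rw [LinearMap.sub_apply, LinearMap.smul_apply, Module.End.one_apply]
        exact Submodule.sub_mem _ (hY w) (Submodule.smul_mem _ _
          (Submodule.mem_span_singleton_self w))
      · rw [LinearMap.sub_apply, LinearMap.smul_apply, Module.End.one_apply, ← hκ, sub_self]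
    intro z
    have := LinearMap.congr_fun h1 z
    rw [LinearMap.sub_apply, LinearMap.smul_apply, Module.End.one_apply, LinearMap.zero_apply]
      at this
    exact sub_eq_zero.1 this
  let ζ : Module.End F W := κ • Z - 1
  have hζ : ∀ z t, z ⊗ₜ ζ t = c • r (kW U g x (r⁻¹ (z ⊗ₜ t)) ⊗ₜ x) := by
    intro z t
    have h1 := hKv (z ⊗ₜ t)
    rw [hK, hYκ] at h1
    have h2 : ζ t = κ • Z t - t := rfl
    rw [h2, TensorProduct.tmul_sub, TensorProduct.tmul_smul, TensorProduct.smul_tmul', h1]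
    abel
  obtain ⟨t0, ht0⟩ : ∃ t, ζ t ≠ 0 := by
    by_contra hcon
    push Not at hcon
    obtain ⟨y, hy⟩ := h.hg.exists_ne hx
    -- then `kW x (r⁻¹ v) = 0` for all `v`
    have h1 : ∀ v : U ⊗[F] W, c • r (kW U g x (r⁻¹ v) ⊗ₜ x) = 0 := by
      intro v
      induction v with
      | zero => simp
      | tmul z t => rw [← hζ, hcon, TensorProduct.tmul_zero]
      | add v v' hv hv' =>
        rw [map_add, map_add, TensorProduct.add_tmul, map_add, smul_add, hv, hv', add_zero]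
    have h2 := h1 (r (z0 ⊗ₜ y))
    rw [hrr', kW_tmul, hy, one_smul] at h2
    have h3 := (smul_eq_zero.1 h2).resolve_left hc
    exact h.hf.tmul_ne_zero hz0 hx ((LinearEquiv.map_eq_zero_iff r).1 h3)
  set w := ζ t0 with hw
  let θ : U →ₗ[F] U := c • (kW U g x ∘ₗ (r⁻¹ : (U ⊗[F] W) ≃ₗ[F] (U ⊗[F] W)).toLinearMap ∘ₗ
      (TensorProduct.mk F U W).flip t0)
  have hθ : ∀ z, θ z = c • kW U g x (r⁻¹ (z ⊗ₜ t0)) := fun z => rfl
  have hrθ : ∀ z, r (θ z ⊗ₜ x) = z ⊗ₜ w := by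
    intro z
    rw [hθ, ← TensorProduct.smul_tmul', map_smul, ← hζ]
  have hθinj : Function.Injective θ := by
    rw [← LinearMap.ker_eq_bot, LinearMap.ker_eq_bot']
    intro z hz
    have h1 := hrθ z
    rw [hz, TensorProduct.zero_tmul, map_zero] at h1
    exact h.hg.tmul_eq_zero' ht0 h1.symm
  let A : U ≃ₗ[F] U := (LinearEquiv.ofInjectiveEndo θ hθinj).symm
  have hθA : ∀ z, θ (A z) = z := fun z =>
    (LinearEquiv.ofInjectiveEndo θ hθinj).apply_symm_apply z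
  have hA : ∀ z, r (z ⊗ₜ x) = A z ⊗ₜ w := by
    intro z
    conv_lhs => rw [← hθA z]
    exact hrθ (A z)
  -- the image of `ζ` is `⟨w⟩`
  have hφ : ∀ t, ∃ a : F, ζ t = a • w := by
    intro t
    obtain ⟨u, hu⟩ := h.hf.exists_ne' hz0
    have h1 := hζ z0 t
    rw [hA] at h1
    have h2 := congrArg (kU f W u) h1
    rw [kU_tmul, hu, one_smul, map_smul, kU_tmul, smul_smul] at h2
    exact ⟨_, h2⟩
  choose φ hφ using hφ
  obtain ⟨z1, hz1⟩ := h.hf.exists_ne hz0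
  have hiso : ∀ t t', φ t * g w t' + φ t' * g t w = 0 := by
    intro t t'
    have hKO : r * actW U (tv h.hg x c) * r⁻¹ ∈ O Q := by
      refine (O Q).mul_mem ((O Q).mul_mem hr ?_) ((O Q).inv_mem hr)
      -- `actW (tv x c)` is an isometry
      intro v
      rw [actW_tv, Q_add]
      have h1 : Q (c • (kW U g x v ⊗ₜ[F] x)) = 0 := by
        rw [QuadraticMap.map_smul, h.Qp, smul_zero]
      have h2 : polar Q v (c • (kW U g x v ⊗ₜ[F] x)) = 0 := by
        rw [polar_smul_right, polar_comm, h.polW, h.hf.alt, smul_zero]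
      rw [h1, h2, add_zero, add_zero]
    have h1 := polar_map hKO (z0 ⊗ₜ t) (z1 ⊗ₜ t')
    have h2 : ∀ z t, (r * actW U (tv h.hg x c) * r⁻¹) (z ⊗ₜ t) = z ⊗ₜ (t + φ t • w) := by
      intro z t
      rw [hKv, ← hζ, TensorProduct.tmul_add, hφ]
    rw [h2, h2, h.pol, h.pol, hz1, one_mul, one_mul] at h1
    simp only [map_add, LinearMap.add_apply, map_smul, LinearMap.smul_apply, smul_eq_mul,
      h.hg.alt, mul_zero, add_zero] at h1
    linear_combination h1
  obtain ⟨t1, ht1⟩ := h.hg.exists_ne ht0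
  have hφ1 : ∀ t, φ t = φ t1 * g w t := by
    intro t
    have h1 := hiso t t1
    rw [ht1, mul_one, h.hg.neg t w, mul_neg] at h1
    exact eq_of_sub_eq_zero (by rw [sub_eq_add_neg]; exact h1)
  have hd0 : φ t1 ≠ 0 := by
    intro h0
    apply ht0
    rw [hw, hφ t0, hφ1 t0, h0, zero_mul, zero_smul]
  have hζv : ∀ v : U ⊗[F] W, c • r (kW U g x (r⁻¹ v) ⊗ₜ x) = φ t1 • (kW U g w v ⊗ₜ w) := by
    intro v
    induction v with
    | zero => simp
    | tmul z t =>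
      rw [← hζ, hφ, hφ1, kW_tmul, TensorProduct.tmul_smul, ← TensorProduct.smul_tmul',
        smul_smul]
    | add v v' hv hv' =>
      rw [map_add, map_add, TensorProduct.add_tmul, map_add, smul_add, hv, hv', map_add,
        TensorProduct.add_tmul, smul_add]
  have hNN : ∀ v, r (kW U g x v ⊗ₜ x) = (c⁻¹ * φ t1) • (kW U g w (r v) ⊗ₜ w) := by
    intro v
    have h1 := hζv (r v)
    rw [hrr'] at h1
    rw [mul_smul, ← h1, smul_smul, inv_mul_cancel₀ hc, one_smul]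
  have hdd : c⁻¹ * φ t1 ≠ 0 := mul_ne_zero (inv_ne_zero hc) hd0
  refine ⟨w, A, c⁻¹ * φ t1, ht0, hdd, hA, hNN, fun z z' => ?_⟩
  obtain ⟨y, hy⟩ := h.hg.exists_ne hx
  have h1 := hNN (z' ⊗ₜ y)
  rw [kW_tmul, hy, one_smul, hA, TensorProduct.smul_tmul'] at h1
  have h2 : A z' = (c⁻¹ * φ t1) • kW U g w (r (z' ⊗ₜ y)) := h.hg.tmul_left_inj ht0 h1
  have h3 := polar_map hr (z ⊗ₜ x) (z' ⊗ₜ y)
  rw [hA, h.polW, h.pol, hy, mul_one] at h3
  rw [h2, map_smul, smul_eq_mul, h3]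

end Cfsg.Agent.H887.TenSp
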