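import Mathlib
import Cfsg.Agent.H887.TenSp.Basic
import Cfsg.Agent.H887.SiegelMethod

/-!
Operators on `U ⊗ W`: `In M n` (`1 + n ∈ M`), commutators, root elements, the standing hypothesis
`Hy f g Q M` : `Q` is the quadratic form on `U ⊗ W` with polar form `f ⊗ g` vanishing on pure
tensors, `M ≤ O Q` contains all transvections `τ ⊗ 1` and `1 ⊗ τ`.
-/

set_option autoImplicit false

namespace Cfsg.Agent.H887.TenSp

open TensorProduct QuadraticMap Cfsg.Agent.LieClassical.OrthCore
  Cfsg.Agent.LieClassical.OrthTrans Cfsg.Agent.ClassicalGeometry.OrthAutBasic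
  Cfsg.Agent.H887.SiegelMethod

section In

variable {F V : Type*} [Field F] [AddCommGroup V] [Module F V]

/-- The subgroup `M` contains the map `1 + n`. -/
def In (M : Subgroup (V ≃ₗ[F] V)) (n : Module.End F V) : Prop := ∃ s ∈ M, ∀ v, s v = v + n v

variable {M : Subgroup (V ≃ₗ[F] V)} {n n' a b : Module.End F V}

theorem In.congr (h : In M n) (e : n = n') : In M n' := e ▸ h

theorem In.zero : In M (0 : Module.End F V) := ⟨1, M.one_mem, fun v => by simp⟩

theorem In.mul (h : In M n) (h' : In M n') : In M (n + n' + n * n') := by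
  obtain ⟨s, hs, hs'⟩ := h
  obtain ⟨r, hr, hr'⟩ := h'
  refine ⟨s * r, M.mul_mem hs hr, fun v => ?_⟩
  show s (r v) = _
  rw [hr', map_add, hs', hs']
  simp only [LinearMap.add_apply, Module.End.mul_apply]
  abel

theorem In.add (h : In M n) (h' : In M n') (e : n * n' = 0) : In M (n + n') := by
  have := h.mul h'
  rwa [e, add_zero] at this

theorem In.neg (h : In M n) (e : n * n = 0) : In M (-n) := by
  obtain ⟨s, hs, hs'⟩ := h
  refine ⟨s⁻¹, M.inv_mem hs, fun v => ?_⟩
  have h1 : s (v + (-n) v) = v := by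
    rw [hs', LinearMap.neg_apply, map_add, map_neg]
    have : n (n v) = 0 := LinearMap.congr_fun e v
    rw [this]
    abel
  have h2 : s⁻¹ (s (v + (-n) v)) = v + (-n) v := LinearEquiv.symm_apply_apply s _
  rw [h1] at h2
  exact h2

theorem In.sub (h : In M n) (h' : In M n') (e' : n' * n' = 0) (e : n * n' = 0) :
    In M (n - n') := by
  rw [sub_eq_add_neg]
  exact h.add (h'.neg e') (by rw [mul_neg, e, neg_zero])

theorem In.conj (h : In M n) {s : V ≃ₗ[F] V} (hs : s ∈ M) :
    In M ((s : V →ₗ[F] V) ∘ₗ n ∘ₗ (s⁻¹ : V ≃ₗ[F] V)) := by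
  obtain ⟨r, hr, hr'⟩ := h
  refine ⟨s * r * s⁻¹, M.mul_mem (M.mul_mem hs hr) (M.inv_mem hs), fun v => ?_⟩
  show s (r (s⁻¹ v)) = v + s (n (s⁻¹ v))
  rw [hr', map_add]
  congr 1
  exact LinearEquiv.apply_symm_apply s v

theorem In.conj' (h : In M n) (ha : In M a) (haa : a * a = 0) :
    In M ((1 + a) * n * (1 - a)) := by
  obtain ⟨s, hs, hs'⟩ := ha
  have h1 := h.conj hs
  refine h1.congr ?_
  ext v
  have h2 : s⁻¹ v = v - a v := by
    have h3 : s (v - a v) = v := by
      rw [hs', map_sub]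
      have : a (a v) = 0 := LinearMap.congr_fun haa v
      rw [this]
      abel
    have h4 : s⁻¹ (s (v - a v)) = v - a v := LinearEquiv.symm_apply_apply s _
    rwa [h3] at h4
  show s (n (s⁻¹ v)) = _
  rw [h2, hs']
  simp only [Module.End.mul_apply, LinearMap.add_apply, LinearMap.sub_apply, Module.End.one_apply]

/-- `n` maps into `A` and kills `A`. -/
structure Nil (A : Submodule F V) (n : Module.End F V) : Prop where
  im : ∀ v, n v ∈ A
  ker : ∀ v ∈ A, n v = 0

variable {A : Submodule F V}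

theorem Nil.mul (h : Nil A n) (h' : Nil A n') : n * n' = 0 := by
  ext v
  exact h.ker _ (h'.im v)

theorem Nil.add (h : Nil A n) (h' : Nil A n') : Nil A (n + n') where
  im := fun v => A.add_mem (h.im v) (h'.im v)
  ker := fun v hv => by rw [LinearMap.add_apply, h.ker v hv, h'.ker v hv, add_zero]

theorem Nil.neg (h : Nil A n) : Nil A (-n) where
  im := fun v => A.neg_mem (h.im v)
  ker := fun v hv => by rw [LinearMap.neg_apply, h.ker v hv, neg_zero]

theorem Nil.sub (h : Nil A n) (h' : Nil A n') : Nil A (n - n') := by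
  rw [sub_eq_add_neg]
  exact h.add h'.neg

theorem Nil.smul (h : Nil A n) (c : F) : Nil A (c • n) where
  im := fun v => A.smul_mem c (h.im v)
  ker := fun v hv => by rw [LinearMap.smul_apply, h.ker v hv, smul_zero]

theorem Nil.mul_left (h : Nil A n) (ha : ∀ v ∈ A, a v ∈ A) : Nil A (a * n) where
  im := fun v => ha _ (h.im v)
  ker := fun v hv => by rw [Module.End.mul_apply, h.ker v hv, map_zero]

theorem Nil.mul_right (h : Nil A n) (ha : ∀ v ∈ A, a v ∈ A) : Nil A (n * a) where
  im := fun v => h.im _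
  ker := fun v hv => h.ker _ (ha v hv)

theorem Nil.comm (h : Nil A n) (ha : ∀ v ∈ A, a v ∈ A) : Nil A (a * n - n * a - a * n * a) :=
  ((h.mul_left ha).sub (h.mul_right ha)).sub ((h.mul_left ha).mul_right ha)

/-- Commutator with `1 + a`. -/
theorem In.comm (h : In M n) (hN : Nil A n) (ha : In M a) (haa : a * a = 0)
    (hA : ∀ v ∈ A, a v ∈ A) : In M (a * n - n * a - a * n * a) := by
  have h1 := h.conj' ha haa
  have e : (1 + a) * n * (1 - a) = n + (a * n - n * a - a * n * a) := by noncomm_ring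
  rw [e] at h1
  have h2 := (h1.add (h.neg (hN.mul hN)) ((hN.add (hN.comm hA)).mul hN.neg))
  refine h2.congr ?_
  abel

/-- Double commutator with `1 + a` and `1 + b`, where `a b = b a = 0`. -/
theorem In.comm2 (h : In M n) (hN : Nil A n) (ha : In M a) (haa : a * a = 0)
    (hA : ∀ v ∈ A, a v ∈ A) (hb : In M b) (hbb : b * b = 0) (hB : ∀ v ∈ A, b v ∈ A)
    (hab : a * b = 0) (hba : b * a = 0) : In M (-(b * n * a + a * n * b)) := by
  have h1 := (h.comm hN ha haa hA).comm (hN.comm hA) hb hbb hB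
  refine h1.congr ?_
  have e1 : b * (a * n - n * a - a * n * a) = -(b * n * a) := by
    have : b * (a * n - n * a - a * n * a) = (b * a) * n - b * n * a - (b * a) * n * a := by
      noncomm_ring
    rw [this, hba]
    simp
  have e2 : (a * n - n * a - a * n * a) * b = a * n * b := by
    have : (a * n - n * a - a * n * a) * b = a * n * b - n * (a * b) - a * n * (a * b) := by
      noncomm_ring
    rw [this, hab]
    simp
  rw [e1, e2]
  have e3 : -(b * n * a) * b = -(b * n * (a * b)) := by noncomm_ring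
  rw [e3, hab]
  simp only [mul_zero, neg_zero, sub_zero]
  abel

end In

section Root

variable {F V : Type*} [Field F] [AddCommGroup V] [Module F V] (Q : QuadraticForm F V)

/-- `v ↦ B(a,v) b - B(b,v) a`. -/
def rt (a b : V) : Module.End F V :=
  (polarBilin Q a).smulRight b - (polarBilin Q b).smulRight a

variable {Q}

theorem rt_apply (a b v : V) : rt Q a b v = polar Q a v • b - polar Q b v • a := rfl

theorem mem_Ts_of_In {M : Subgroup (V ≃ₗ[F] V)} {a b : V} (ha : Q a = 0) (hb : Q b = 0)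
    (hab : polar Q a b = 0) (h : ∀ c : F, In M (c • rt Q a b)) : b ∈ Ts Q M a := by
  refine ⟨hab, fun c => ?_⟩
  obtain ⟨s, hs, hs'⟩ := h c
  have e : T Q a (c • b) = s := by
    ext v
    rw [hs', T_apply_root ha (by rw [QuadraticMap.map_smul, hb, smul_zero])
      (by rw [polar_smul_right, hab, smul_zero]), LinearMap.smul_apply, rt_apply,
      polar_smul_left]
    module
  rw [e]
  exact hs

end Root

variable {F U W : Type*} [Field F] [AddCommGroup U] [Module F U] [AddCommGroup W] [Module F W]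

/-- `Q` has polar form `f ⊗ g` and vanishes on pure tensors. -/
structure Sp2 (f : LinearMap.BilinForm F U) (g : LinearMap.BilinForm F W)
    (Q : QuadraticForm F (U ⊗[F] W)) : Prop where
  hf : Alt f
  hg : Alt g
  Qp : ∀ x y, Q (x ⊗ₜ y) = 0
  pol : ∀ x x' y y', polar Q (x ⊗ₜ y) (x' ⊗ₜ y') = f x x' * g y y'

variable {f : LinearMap.BilinForm F U} {g : LinearMap.BilinForm F W}
  {Q : QuadraticForm F (U ⊗[F] W)}

theorem Sp2.polW (h : Sp2 f g Q) (x : U) (y : W) (v : U ⊗[F] W) :
    polar Q (x ⊗ₜ y) v = f x (kW U g y v) := by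
  induction v with
  | zero => simp
  | tmul x' y' => rw [h.pol, kW_tmul, map_smul, smul_eq_mul, mul_comm]
  | add v v' hv hv' => rw [polar_add_right, hv, hv', map_add, map_add]

theorem Sp2.polU (h : Sp2 f g Q) (x : U) (y : W) (v : U ⊗[F] W) :
    polar Q (x ⊗ₜ y) v = g y (kU f W x v) := by
  induction v with
  | zero => simp
  | tmul x' y' => rw [h.pol, kU_tmul, map_smul, smul_eq_mul]
  | add v v' hv hv' => rw [polar_add_right, hv, hv', map_add, map_add]

theorem Sp2.nondeg [FiniteDimensional F U] (h : Sp2 f g Q) : Nondeg Q := by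
  intro v hv
  apply eq_zero_of_kW h.hg
  intro w
  apply h.hf.nd' _ fun x => ?_
  rw [← h.polW, polar_comm, hv]

theorem kU_map (u : U) (R : Module.End F W) (v : U ⊗[F] W) :
    kU f W u (TensorProduct.map 1 R v) = R (kU f W u v) := by
  induction v with
  | zero => simp
  | tmul x y => simp
  | add v v' hv hv' => rw [map_add, map_add, map_add, map_add, hv, hv']

theorem kW_map (w : W) (S : Module.End F U) (v : U ⊗[F] W) :
    kW U g w (TensorProduct.map S 1 v) = S (kW U g w v) := by
  induction v with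
  | zero => simp
  | tmul x y => simp
  | add v v' hv hv' => rw [map_add, map_add, map_add, map_add, hv, hv']

theorem map_E1_left (x y : U) (R : Module.End F W) (v : U ⊗[F] W) :
    TensorProduct.map (E1 f x y) R v = x ⊗ₜ R (kU f W y v) := by
  induction v with
  | zero => simp
  | tmul z t => rw [map_tmul, E1_apply, kU_tmul, map_smul, TensorProduct.smul_tmul]
  | add v v' hv hv' => rw [map_add, hv, hv', map_add, map_add, TensorProduct.tmul_add]

theorem map_E1_right (x y : W) (S : Module.End F U) (v : U ⊗[F] W) :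
    TensorProduct.map S (E1 g x y) v = S (kW U g y v) ⊗ₜ x := by
  induction v with
  | zero => simp
  | tmul z t => rw [map_tmul, E1_apply, kW_tmul, map_smul, TensorProduct.smul_tmul]
  | add v v' hv hv' => rw [map_add, hv, hv', map_add, map_add, TensorProduct.add_tmul]

/-- The root operator of two pure tensors. -/
theorem Sp2.rt_eq (h : Sp2 f g Q) (x x' : U) (y y' : W) :
    rt Q (x ⊗ₜ[F] y) (x' ⊗ₜ y') = TensorProduct.map (E1 f x' x) (E1 g y' y) -
      TensorProduct.map (E1 f x x') (E1 g y y') := by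
  apply TensorProduct.ext'
  intro z t
  rw [rt_apply, h.pol, h.pol, LinearMap.sub_apply, map_tmul, map_tmul]
  simp only [E1_apply, ← TensorProduct.smul_tmul', TensorProduct.tmul_smul]
  module

/-- The standing hypothesis. -/
structure Hy (f : LinearMap.BilinForm F U) (g : LinearMap.BilinForm F W)
    (Q : QuadraticForm F (U ⊗[F] W)) (M : Subgroup ((U ⊗[F] W) ≃ₗ[F] (U ⊗[F] W))) : Prop
    extends Sp2 f g Q where
  hO : M ≤ O Q
  hU : ∀ (u : U) (c : F), In M (c • TensorProduct.map (E1 f u u) 1)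
  hW : ∀ (w : W) (c : F), In M (c • TensorProduct.map 1 (E1 g w w))

variable {M : Subgroup ((U ⊗[F] W) ≃ₗ[F] (U ⊗[F] W))}

theorem map_mul' (S S' : Module.End F U) (R R' : Module.End F W) :
    (TensorProduct.map S R : Module.End F (U ⊗[F] W)) * TensorProduct.map S' R' =
      TensorProduct.map (S * S') (R * R') := (TensorProduct.map_mul _ _ _ _).symm

theorem NU_sq (hf : Alt f) (u : U) (c : F) :
    (c • TensorProduct.map (E1 f u u) (1 : Module.End F W)) *
      (c • TensorProduct.map (E1 f u u) (1 : Module.End F W)) = 0 := by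
  rw [smul_mul_smul_comm, map_mul', E1_mul, hf.alt, zero_smul, TensorProduct.map_zero_left,
    smul_zero]

theorem NW_sq (hg : Alt g) (w : W) (c : F) :
    (c • TensorProduct.map (1 : Module.End F U) (E1 g w w)) *
      (c • TensorProduct.map (1 : Module.End F U) (E1 g w w)) = 0 := by
  rw [smul_mul_smul_comm, map_mul', E1_mul, hg.alt, zero_smul, TensorProduct.map_zero_right,
    smul_zero]

/-! ### Elements `A ⊗ 1` and `1 ⊗ B` -/

/-- `A ↦ A ⊗ 1`. -/
noncomputable def actU (W : Type*) [AddCommGroup W] [Module F W] :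
    (U ≃ₗ[F] U) →* ((U ⊗[F] W) ≃ₗ[F] (U ⊗[F] W)) where
  toFun := fun A => TensorProduct.congr A (LinearEquiv.refl F W)
  map_one' := by
    ext v
    induction v with
    | zero => simp
    | tmul x y => simp
    | add v v' hv hv' => rw [map_add, hv, hv', map_add]
  map_mul' := fun A B => by
    ext v
    induction v with
    | zero => simp
    | tmul x y => simp
    | add v v' hv hv' => rw [map_add, hv, hv', map_add]

/-- `B ↦ 1 ⊗ B`. -/
noncomputable def actW (U : Type*) [AddCommGroup U] [Module F U] :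
    (W ≃ₗ[F] W) →* ((U ⊗[F] W) ≃ₗ[F] (U ⊗[F] W)) where
  toFun := fun B => TensorProduct.congr (LinearEquiv.refl F U) B
  map_one' := by
    ext v
    induction v with
    | zero => simp
    | tmul x y => simp
    | add v v' hv hv' => rw [map_add, hv, hv', map_add]
  map_mul' := fun A B => by
    ext v
    induction v with
    | zero => simp
    | tmul x y => simp
    | add v v' hv hv' => rw [map_add, hv, hv', map_add]

@[simp] theorem actU_tmul (A : U ≃ₗ[F] U) (x : U) (y : W) : actU W A (x ⊗ₜ y) = A x ⊗ₜ y := by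
  simp [actU]

@[simp] theorem actW_tmul (B : W ≃ₗ[F] W) (x : U) (y : W) : actW U B (x ⊗ₜ y) = x ⊗ₜ B y := by
  simp [actW]

/-- Two automorphisms agreeing on pure tensors are equal. -/
theorem ext_pure {s r : (U ⊗[F] W) ≃ₗ[F] (U ⊗[F] W)} (h : ∀ x y, s (x ⊗ₜ y) = r (x ⊗ₜ y)) :
    s = r := by
  ext v
  induction v with
  | zero => simp
  | tmul x y => exact h x y
  | add v v' hv hv' => rw [map_add, hv, hv', map_add]

/-- Isometries of `f` whose action on the first factor is in `M`. -/
def GU (f : LinearMap.BilinForm F U) (M : Subgroup ((U ⊗[F] W) ≃ₗ[F] (U ⊗[F] W))) :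
    Subgroup (U ≃ₗ[F] U) where
  carrier := {A | (∀ z z', f (A z) (A z') = f z z') ∧ actU W A ∈ M}
  one_mem' := ⟨fun _ _ => rfl, by rw [map_one]; exact M.one_mem⟩
  mul_mem' := by
    rintro A B ⟨hA, hA'⟩ ⟨hB, hB'⟩
    refine ⟨fun z z' => ?_, by rw [map_mul]; exact M.mul_mem hA' hB'⟩
    show f (A (B z)) (A (B z')) = _
    rw [hA, hB]
  inv_mem' := by
    rintro A ⟨hA, hA'⟩
    refine ⟨fun z z' => ?_, by rw [map_inv]; exact M.inv_mem hA'⟩
    rw [← hA]
    have e : ∀ z, A (A⁻¹ z) = z := fun z => LinearEquiv.apply_symm_apply A z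
    rw [e, e]

/-- Isometries of `g` whose action on the second factor is in `M`. -/
def GW (g : LinearMap.BilinForm F W) (M : Subgroup ((U ⊗[F] W) ≃ₗ[F] (U ⊗[F] W))) :
    Subgroup (W ≃ₗ[F] W) where
  carrier := {A | (∀ z z', g (A z) (A z') = g z z') ∧ actW U A ∈ M}
  one_mem' := ⟨fun _ _ => rfl, by rw [map_one]; exact M.one_mem⟩
  mul_mem' := by
    rintro A B ⟨hA, hA'⟩ ⟨hB, hB'⟩
    refine ⟨fun z z' => ?_, by rw [map_mul]; exact M.mul_mem hA' hB'⟩
    show g (A (B z)) (A (B z')) = _
    rw [hA, hB]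
  inv_mem' := by
    rintro A ⟨hA, hA'⟩
    refine ⟨fun z z' => ?_, by rw [map_inv]; exact M.inv_mem hA'⟩
    rw [← hA]
    have e : ∀ z, A (A⁻¹ z) = z := fun z => LinearEquiv.apply_symm_apply A z
    rw [e, e]

/-- The transvection `z ↦ z + c f(u,z) u`. -/
noncomputable def tv (hf : Alt f) (u : U) (c : F) : U ≃ₗ[F] U :=
  LinearEquiv.ofLinearMap (LinearMap.id + c • E1 f u u) (LinearMap.id - c • E1 f u u)
    (by
      ext z
      simp [hf.alt])
    (by
      ext z
      simp [hf.alt])

@[simp] theorem tv_apply (hf : Alt f) (u : U) (c : F) (z : U) :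
    tv hf u c z = z + (c * f u z) • u := by
  simp [tv, smul_smul]

theorem tv_isom (hf : Alt f) (u : U) (c : F) (z z' : U) :
    f (tv hf u c z) (tv hf u c z') = f z z' := by
  simp only [tv_apply, map_add, LinearMap.add_apply, map_smul, LinearMap.smul_apply, smul_eq_mul,
    hf.alt]
  rw [hf.neg z u]
  ring

theorem Hy.tvU (h : Hy f g Q M) (u : U) (c : F) : tv h.hf u c ∈ GU f M := by
  refine ⟨tv_isom h.hf u c, ?_⟩
  obtain ⟨s, hs, hs'⟩ := h.hU u c
  have e : actU W (tv h.hf u c) = s := by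
    apply ext_pure
    intro x y
    rw [hs', actU_tmul, tv_apply, TensorProduct.add_tmul, LinearMap.smul_apply, map_tmul,
      E1_apply, mul_smul, Module.End.one_apply, TensorProduct.smul_tmul']
  rw [e]
  exact hs

theorem Hy.tvW (h : Hy f g Q M) (w : W) (c : F) : tv h.hg w c ∈ GW g M := by
  refine ⟨tv_isom h.hg w c, ?_⟩
  obtain ⟨s, hs, hs'⟩ := h.hW w c
  have e : actW U (tv h.hg w c) = s := by
    apply ext_pure
    intro x y
    rw [hs', actW_tmul, tv_apply, TensorProduct.tmul_add, LinearMap.smul_apply, map_tmul,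
      E1_apply, mul_smul, Module.End.one_apply, TensorProduct.tmul_smul, TensorProduct.tmul_smul]
  rw [e]
  exact hs

theorem Alt.exists_both (hf : Alt f) {x y : U} (hx : x ≠ 0) (hy : y ≠ 0) :
    ∃ z, f x z ≠ 0 ∧ f z y ≠ 0 := by
  obtain ⟨z1, h1⟩ := hf.exists_ne hx
  obtain ⟨z2, h2⟩ := hf.exists_ne' hy
  by_cases h3 : f z1 y = 0
  · by_cases h4 : f x z2 = 0
    · refine ⟨z1 + z2, ?_, ?_⟩
      · rw [map_add, h1, h4, add_zero]
        exact one_ne_zero
      · rw [map_add, LinearMap.add_apply, h3, h2, zero_add]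
        exact one_ne_zero
    · exact ⟨z2, h4, by rw [h2]; exact one_ne_zero⟩
  · exact ⟨z1, by rw [h1]; exact one_ne_zero, h3⟩

theorem tv_sub (hf : Alt f) {x y : U} (hxy : f x y ≠ 0) : tv hf (x - y) (-(f x y)⁻¹) x = y := by
  rw [tv_apply, map_sub, LinearMap.sub_apply, hf.alt, hf.neg y x]
  have : -(f x y)⁻¹ * (0 - -f x y) = -1 := by
    field_simp
    ring
  rw [this]
  simp

/-- A subgroup containing all transvections is transitive on nonzero vectors. -/
theorem trans_of_tv (hf : Alt f) {G : Subgroup (U ≃ₗ[F] U)} (hG : ∀ u c, tv hf u c ∈ G)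
    {x y : U} (hx : x ≠ 0) (hy : y ≠ 0) : ∃ A ∈ G, A x = y := by
  obtain ⟨z, h1, h2⟩ := hf.exists_both hx hy
  refine ⟨tv hf (z - y) (-(f z y)⁻¹) * tv hf (x - z) (-(f x z)⁻¹), G.mul_mem (hG _ _) (hG _ _), ?_⟩
  show tv hf (z - y) (-(f z y)⁻¹) (tv hf (x - z) (-(f x z)⁻¹) x) = y
  rw [tv_sub hf h1, tv_sub hf h2]

theorem Hy.transU (h : Hy f g Q M) {x y : U} (hx : x ≠ 0) (hy : y ≠ 0) :
    ∃ A ∈ GU f M, A x = y := trans_of_tv h.hf h.tvU hx hy

theorem Hy.transW (h : Hy f g Q M) {x y : W} (hx : x ≠ 0) (hy : y ≠ 0) :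
    ∃ A ∈ GW g M, A x = y := trans_of_tv h.hg h.tvW hx hy

/-- Short root elements. -/
theorem Hy.shortU (h : Hy f g Q M) {x y : U} (hxy : f x y = 0) (c : F) :
    In M (c • TensorProduct.map (E1 f x y + E1 f y x) 1) := by
  have hyx := h.hf.comm_zero hxy
  have h1 := (h.hU (x + y) c).sub (h.hU x c) (NU_sq h.hf x c) (by
    rw [smul_mul_smul_comm, map_mul', E1_mul, map_add, LinearMap.add_apply, h.hf.alt, hyx,
      add_zero, zero_smul, TensorProduct.map_zero_left, smul_zero])
  have h2 := h1.sub (h.hU y c) (NU_sq h.hf y c) (by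
    rw [sub_mul, smul_mul_smul_comm, smul_mul_smul_comm, map_mul', map_mul', E1_mul, E1_mul,
      map_add, LinearMap.add_apply, h.hf.alt, hxy, add_zero, zero_smul, zero_smul,
      TensorProduct.map_zero_left, smul_zero, sub_zero])
  refine h2.congr ?_
  rw [E1_add_left, E1_add_right, E1_add_right]
  simp only [TensorProduct.map_add_left, smul_add]
  abel

theorem Hy.shortW (h : Hy f g Q M) {x y : W} (hxy : g x y = 0) (c : F) :
    In M (c • TensorProduct.map 1 (E1 g x y + E1 g y x)) := by
  have hyx := h.hg.comm_zero hxy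
  have h1 := (h.hW (x + y) c).sub (h.hW x c) (NW_sq h.hg x c) (by
    rw [smul_mul_smul_comm, map_mul', E1_mul, map_add, LinearMap.add_apply, h.hg.alt, hyx,
      add_zero, zero_smul, TensorProduct.map_zero_right, smul_zero])
  have h2 := h1.sub (h.hW y c) (NW_sq h.hg y c) (by
    rw [sub_mul, smul_mul_smul_comm, smul_mul_smul_comm, map_mul', map_mul', E1_mul, E1_mul,
      map_add, LinearMap.add_apply, h.hg.alt, hxy, add_zero, zero_smul, zero_smul,
      TensorProduct.map_zero_right, smul_zero, sub_zero])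
  refine h2.congr ?_
  rw [E1_add_left, E1_add_right, E1_add_right]
  simp only [TensorProduct.map_add_right, smul_add]
  abel

end Cfsg.Agent.H887.TenSp
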