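import Mathlib
import Cfsg.Agent.H887.TenSp.LocalK

/-!
Sylow arguments: the stabiliser of `U ⊗ w` in `M` consists of elements `A ⊗ B`.
-/

set_option autoImplicit false
set_option linter.unusedSectionVars false
set_option linter.unusedSimpArgs false

namespace Cfsg.Agent.H887.TenSp

open TensorProduct QuadraticMap Cfsg.Agent.LieClassical.OrthCore
  Cfsg.Agent.LieClassical.OrthTrans Cfsg.Agent.ClassicalGeometry.OrthAutBasic
  Cfsg.Agent.H887.SiegelMethod

/-! ### Pure group theory -/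

/-- `K`, `H` subgroups of a finite group, `R₀ ≤ K ∩ H` a `p`-subgroup such that every `p`-subgroup
`S` with `R₀ ≤ S ≤ K ∩ H` satisfies `N_K(S) ≤ H`. Then `H` contains every normal `p`-subgroup of
`K`. -/
theorem sylow_normal_le {G : Type*} [Group G] [Finite G] {p : ℕ} [Fact p.Prime]
    {K H R₀ Y : Subgroup G} (hR : IsPGroup p R₀) (hRK : R₀ ≤ K ⊓ H)
    (hN : ∀ S : Subgroup G, IsPGroup p S → R₀ ≤ S → S ≤ K ⊓ H →
      ∀ r ∈ K, r ∈ Subgroup.normalizer (S : Set G) → r ∈ H)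
    (hY : IsPGroup p Y) (hYK : Y ≤ K) (hYn : ∀ k ∈ K, ∀ y ∈ Y, k * y * k⁻¹ ∈ Y) : Y ≤ H := by
  -- a maximal `p`-subgroup of `K ⊓ H` containing `R₀`
  obtain ⟨S, hRS, hS⟩ := (Set.toFinite {P : Subgroup G | IsPGroup p P ∧ P ≤ K ⊓ H}).exists_le_maximal
    (a := R₀) ⟨hR, hRK⟩
  obtain ⟨⟨hSp, hSK⟩, hSmax⟩ := hS
  -- the `p`-group `T = Y S`
  have hSN : S ≤ Subgroup.normalizer (Y : Set G) := by
    intro s hs
    rw [Subgroup.mem_normalizer_iff]
    intro y
    constructor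
    · exact hYn s (hSK hs).1 y
    · intro hy
      have := hYn s⁻¹ (K.inv_mem (hSK hs).1) _ hy
      have e : s⁻¹ * (s * y * s⁻¹) * s⁻¹⁻¹ = y := by group
      rwa [e] at this
  have hT : IsPGroup p (Y ⊔ S : Subgroup G) := hY.to_sup_of_normal_left' hSp hSN
  have hTK : Y ⊔ S ≤ K := sup_le hYK (hSK.trans inf_le_left)
  by_contra hcon
  have hlt : S < Y ⊔ S := by
    refine lt_of_le_of_ne le_sup_right ?_
    intro e
    apply hcon
    have h1 : Y ≤ S := by
      rw [e]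
      exact le_sup_left
    exact h1.trans (hSK.trans inf_le_right)
  set T := Y ⊔ S with hTdef
  have : Finite T := Subtype.finite
  have hnil : Group.IsNilpotent T := hT.isNilpotent
  have hnc : NormalizerCondition T := Group.normalizerCondition_of_isNilpotent
  have h1 : S.subgroupOf T < ⊤ := by
    rw [lt_top_iff_ne_top]
    intro e
    exact absurd (Subgroup.subgroupOf_eq_top.1 e) (not_le_of_gt hlt)
  have h2 := hnc _ h1
  obtain ⟨t, ht, htS⟩ := SetLike.exists_of_lt h2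
  have htN : (t : G) ∈ Subgroup.normalizer (S : Set G) := by
    rw [Subgroup.mem_normalizer_iff] at ht ⊢
    intro s
    constructor
    · intro hs
      have h3 := (ht ⟨s, hlt.le hs⟩).1 hs
      exact h3
    · intro hs
      have h4 : s ∈ T := by
        have h5 := T.mul_mem (T.mul_mem (T.inv_mem t.2) (hlt.le hs)) t.2
        have e : (t : G)⁻¹ * ((t : G) * s * (t : G)⁻¹) * (t : G) = s := by group
        rwa [e] at h5
      exact (ht ⟨s, h4⟩).2 hs
  have htH : (t : G) ∈ H := hN S hSp hRS hSK _ (hTK t.2) htN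
  have hP : S ⊔ Subgroup.zpowers (t : G) ≤ T :=
    sup_le hlt.le (by rw [Subgroup.zpowers_le]; exact t.2)
  have hPp : IsPGroup p (S ⊔ Subgroup.zpowers (t : G) : Subgroup G) := hT.to_le hP
  have hPK : S ⊔ Subgroup.zpowers (t : G) ≤ K ⊓ H := by
    refine sup_le hSK ?_
    rw [Subgroup.zpowers_le]
    exact ⟨hTK t.2, htH⟩
  have h3 := hSmax ⟨hPp, hPK⟩ le_sup_left
  apply htS
  exact h3 ((le_sup_right : Subgroup.zpowers (t : G) ≤ S ⊔ Subgroup.zpowers (t : G))
    (Subgroup.mem_zpowers (t : G)))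

variable {F U W : Type*} [Field F] [AddCommGroup U] [Module F U] [AddCommGroup W] [Module F W]
  [FiniteDimensional F U] [FiniteDimensional F W]
  {f : LinearMap.BilinForm F U} {g : LinearMap.BilinForm F W}
  {Q : QuadraticForm F (U ⊗[F] W)} {M : Subgroup ((U ⊗[F] W) ≃ₗ[F] (U ⊗[F] W))}

/-- Unipotent elements have `p`-power order. -/
theorem pow_of_nilp {V : Type*} [AddCommGroup V] [Module F V] {p : ℕ} [hp : Fact p.Prime]
    [CharP F p] {s : V ≃ₗ[F] V} {n : Module.End F V} (hs : ∀ v, s v = v + n v) {k : ℕ}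
    (hk : n ^ k = 0) : ∃ m : ℕ, s ^ p ^ m = 1 := by
  by_cases hV : Subsingleton V
  · refine ⟨0, ?_⟩
    ext v
    exact Subsingleton.elim _ _
  have hV' : Nontrivial V := not_subsingleton_iff_nontrivial.1 hV
  have hch : CharP (Module.End F V) p :=
    charP_of_injective_algebraMap (algebraMap F (Module.End F V)).injective p
  obtain ⟨m, hm⟩ : ∃ m : ℕ, k ≤ p ^ m := ⟨k, (Nat.lt_pow_self hp.out.one_lt).le⟩
  refine ⟨m, ?_⟩
  have h1 : ((s : V →ₗ[F] V) : Module.End F V) = 1 + n := by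
    ext v
    exact hs v
  have h2 : (1 + n) ^ p ^ m = 1 := by
    rw [add_pow_char_pow_of_commute p m (Commute.one_left n), one_pow]
    rw [← Nat.sub_add_cancel hm, pow_add, hk, mul_zero, add_zero]
  have h3 : ∀ (j : ℕ) (v : V), (s ^ j) v = ((1 + n) ^ j) v := by
    intro j
    induction j with
    | zero => intro v; rfl
    | succ j ih =>
      intro v
      rw [pow_succ, pow_succ]
      show (s ^ j) (s v) = ((1 + n) ^ j) ((1 + n) v)
      rw [ih, ← h1]
      rfl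
  ext v
  rw [h3, h2]
  rfl

/-- Non-orthogonal transvections generate no `p`-group. -/
theorem orth_of_pgroup {p : ℕ} [hp : Fact p.Prime] [CharP F p] (hg : Alt g)
    (hU0 : ∃ u : U, u ≠ 0) {P : Subgroup ((U ⊗[F] W) ≃ₗ[F] (U ⊗[F] W))} (hP : IsPGroup p P)
    {w x : W} {c c' : F} (hc : c ≠ 0) (hc' : c' ≠ 0)
    (h1 : actW U (tv hg w c) ∈ P) (h2 : actW U (tv hg x c') ∈ P) : g w x = 0 := by
  by_contra he
  set e := g w x with hedef
  have hxw : g x w = -e := by rw [hg.neg]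
  obtain ⟨u0, hu0⟩ := hU0
  have hw0 : w ≠ 0 := by
    rintro rfl
    rw [map_zero, LinearMap.zero_apply] at hedef
    exact he hedef
  -- the product
  obtain ⟨k, hk⟩ := hP ⟨actW U (tv hg w c) * actW U (tv hg x c'), P.mul_mem h1 h2⟩
  have hk' : (actW U (tv hg w c * tv hg x c')) ^ p ^ k = 1 := by
    rw [map_mul]
    exact congrArg Subtype.val hk
  set G : W ≃ₗ[F] W := tv hg w c * tv hg x c' with hG
  have hGk : ∀ t, (G ^ p ^ k) t = t := by
    intro t
    have h3 := congrArg (fun s : (U ⊗[F] W) ≃ₗ[F] (U ⊗[F] W) => s (u0 ⊗ₜ t)) hk'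
    rw [← map_pow] at h3
    have h4 : u0 ⊗ₜ[F] (G ^ p ^ k) t = u0 ⊗ₜ t := by
      rw [← actW_tmul]
      exact h3
    -- cancel `u0`
    obtain ⟨φ, hφ⟩ : ∃ φ : Module.Dual F U, φ u0 ≠ 0 := by
      by_contra hcon
      push Not at hcon
      exact hu0 ((Module.forall_dual_apply_eq_zero_iff F u0).1 hcon)
    have h5 := congrArg ((TensorProduct.lid F W).toLinearMap ∘ₗ LinearMap.rTensor W φ) h4
    simp only [LinearMap.comp_apply, LinearMap.rTensor_tmul, LinearEquiv.coe_coe,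
      TensorProduct.lid_tmul] at h5
    exact smul_right_injective W hφ h5
  -- the operator `D = G - 1`
  let D : Module.End F W := (G : W →ₗ[F] W) - 1
  have hDw : ∀ a b : F, D (a • w + b • x) = (-(a * c * c' * e * e) + b * c * e) • w +
      (-(a * c' * e)) • x := by
    intro a b
    have h3 : D (a • w + b • x) = G (a • w + b • x) - (a • w + b • x) := rfl
    have h4 : ∀ y, G y = tv hg w c (tv hg x c' y) := fun y => rfl
    rw [h3, h4, tv_apply, tv_apply]
    simp only [map_add, map_smul, smul_eq_mul, hg.alt, hxw, ← hedef]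
    module
  have hD : ∀ j : ℕ, ∃ a b : F, (a ≠ 0 ∨ b ≠ 0) ∧ (D ^ j) w = a • w + b • x := by
    intro j
    induction j with
    | zero => exact ⟨1, 0, Or.inl one_ne_zero, by simp⟩
    | succ j ih =>
      obtain ⟨a, b, hab, h3⟩ := ih
      refine ⟨_, _, ?_, by rw [pow_succ', Module.End.mul_apply, h3, hDw]⟩
      by_contra hcon
      push Not at hcon
      obtain ⟨h4, h5⟩ := hcon
      have ha : a = 0 := by
        have h6 : a * (c' * e) = 0 := by
          have := neg_eq_zero.1 h5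
          rw [← this]; ring
        exact (mul_eq_zero.1 h6).resolve_right (mul_ne_zero hc' he)
      have hb : b = 0 := by
        rw [ha] at h4
        have h6 : b * (c * e) = 0 := by
          rw [← h4]; ring
        exact (mul_eq_zero.1 h6).resolve_right (mul_ne_zero hc he)
      rcases hab with h | h
      · exact h ha
      · exact h hb
  -- `D ^ (p ^ k) = 0`
  have hD0 : D ^ p ^ k = 0 := by
    have hW' : Nontrivial W := ⟨⟨w, 0, hw0⟩⟩
    have hch : CharP (Module.End F W) p :=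
      charP_of_injective_algebraMap (algebraMap F (Module.End F W)).injective p
    have h3 : D ^ p ^ k = ((G : W →ₗ[F] W) : Module.End F W) ^ p ^ k - 1 := by
      have h4 : ((G : W →ₗ[F] W) : Module.End F W) = D + 1 := by
        show _ = ((G : W →ₗ[F] W) : Module.End F W) - 1 + 1
        rw [sub_add_cancel]
      rw [h4, add_pow_char_pow_of_commute p k (Commute.one_right D), one_pow, add_sub_cancel_right]
    rw [h3, sub_eq_zero]
    have h4 : ∀ (j : ℕ) (v : W), (((G : W →ₗ[F] W) : Module.End F W) ^ j) v = (G ^ j) v := by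
      intro j
      induction j with
      | zero => intro v; rfl
      | succ j ih =>
        intro v
        rw [pow_succ, pow_succ, Module.End.mul_apply, ih]
        rfl
    ext v
    rw [h4, hGk]
    rfl
  obtain ⟨a, b, hab, h3⟩ := hD (p ^ k)
  rw [hD0, LinearMap.zero_apply] at h3
  have h4 := congrArg (g w) h3.symm
  rw [map_add, map_smul, map_smul, hg.alt, smul_zero, zero_add, map_zero, smul_eq_mul,
    ← hedef] at h4
  have hb : b = 0 := (mul_eq_zero.1 h4).resolve_right he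
  rw [hb, zero_smul, add_zero] at h3
  have ha : a = 0 := (smul_eq_zero.1 h3.symm).resolve_right hw0
  rcases hab with h | h
  · exact h ha
  · exact h hb

/-- Elements of `O Q` fixing `U ⊗ L` pointwise. -/
theorem Sp2.nil_of_fix (h : Sp2 f g Q) {L : Submodule F W} (hL : perp g L = L)
    {s : (U ⊗[F] W) ≃ₗ[F] (U ⊗[F] W)} (hs : s ∈ O Q)
    (hfix : ∀ z : U, ∀ x ∈ L, s (z ⊗ₜ x) = z ⊗ₜ x) :
    Nil (UL U L) ((s : (U ⊗[F] W) →ₗ[F] (U ⊗[F] W)) - 1 : Module.End F (U ⊗[F] W)) := by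
  set n : Module.End F (U ⊗[F] W) := (s : (U ⊗[F] W) →ₗ[F] (U ⊗[F] W)) - 1 with hn
  have hn' : ∀ v, n v = s v - v := fun v => rfl
  constructor
  · intro v
    rw [mem_UL_iff h.hg, hL]
    intro w hw
    apply h.hf.nd' _ fun z => ?_
    rw [← h.polW, hn', sub_eq_add_neg, polar_add_right, polar_neg_right]
    have h1 := polar_map hs (z ⊗ₜ w) v
    rw [hfix z w hw] at h1
    rw [h1, add_neg_cancel]
  · intro v hv
    have h1 : UL U L ≤ LinearMap.ker n := by
      refine Submodule.span_le.2 ?_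
      rintro _ ⟨z, t, ht, rfl⟩
      show n (z ⊗ₜ t) = 0
      rw [hn', hfix z t ht, sub_self]
    exact h1 hv

/-- The pointwise stabiliser of `U ⊗ L` in `M`. -/
def RL (M : Subgroup ((U ⊗[F] W) ≃ₗ[F] (U ⊗[F] W))) (L : Submodule F W) :
    Subgroup ((U ⊗[F] W) ≃ₗ[F] (U ⊗[F] W)) where
  carrier := {s | s ∈ M ∧ ∀ z : U, ∀ x ∈ L, s (z ⊗ₜ x) = z ⊗ₜ x}
  one_mem' := ⟨M.one_mem, fun _ _ _ => rfl⟩
  mul_mem' := by
    rintro s r ⟨hs, hs'⟩ ⟨hr, hr'⟩
    refine ⟨M.mul_mem hs hr, fun z x hx => ?_⟩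
    show s (r (z ⊗ₜ x)) = _
    rw [hr' z x hx, hs' z x hx]
  inv_mem' := by
    rintro s ⟨hs, hs'⟩
    refine ⟨M.inv_mem hs, fun z x hx => ?_⟩
    conv_lhs => rw [← hs' z x hx]
    exact LinearEquiv.symm_apply_apply s _

theorem Hy.RL_pgroup (h : Hy f g Q M) {p : ℕ} [Fact p.Prime] [CharP F p] {L : Submodule F W}
    (hL : perp g L = L) : IsPGroup p (RL M L) := by
  rintro ⟨s, hs, hs'⟩
  have h1 := h.nil_of_fix hL (h.hO hs) hs'
  obtain ⟨m, hm⟩ := pow_of_nilp (p := p) (s := s)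
    (n := (s : (U ⊗[F] W) →ₗ[F] (U ⊗[F] W)) - 1) (k := 2) (fun v => by
      show s v = v + (s v - v)
      abel) (by rw [pow_two, h1.mul h1])
  exact ⟨m, Subtype.ext hm⟩

theorem RL_le_Sten (hf : Alt f) (hLZ : LZ g M) (hU0 : ∃ u : U, u ≠ 0) {L : Submodule F W}
    (hL : perp g L = L) : RL M L ≤ Sten F U W := by
  rintro s ⟨hs, hs'⟩
  obtain ⟨ν, hν⟩ := hLZ L hL s hs hs'
  exact mem_Sten_of hf hU0 (A := 1) fun u t => ⟨_, hν u t⟩

theorem Hy.tv_mem_RL (h : Hy f g Q M) {L : Submodule F W} (hL : perp g L = L) {x : W}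
    (hx : x ∈ L) (c : F) : actW U (tv h.hg x c) ∈ RL M L := by
  refine ⟨(h.tvW x c).2, fun z y hy => ?_⟩
  rw [actW_tmul, tv_apply]
  have : g x y = 0 := by
    rw [← hL] at hy
    exact hy x hx
  rw [this, mul_zero, zero_smul, add_zero]

/-- The conjugate of a transvection. -/
theorem Carry.conj_eq (hg : Alt g) {r : (U ⊗[F] W) ≃ₗ[F] (U ⊗[F] W)} {x w : W}
    {A : U ≃ₗ[F] U} {d : F} (hC : Carry f g r x w A d) (c : F) :
    r * actW U (tv hg x c) * r⁻¹ = actW U (tv hg w (c * d)) := by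
  ext v
  show r (actW U (tv hg x c) (r⁻¹ v)) = actW U (tv hg w (c * d)) v
  have hrr : r (r⁻¹ v) = v := LinearEquiv.apply_symm_apply r v
  rw [actW_tv, actW_tv, map_add, map_smul, hC.hN, hrr, smul_smul]

/-- `N_M(S) ≤ Sten` for `p`-subgroups `RL M L ≤ S ≤ Sten`. -/
theorem Hy.normalizer_le (h : Hy f g Q M) {p : ℕ} [Fact p.Prime] [CharP F p] (hLZ : LZ g M)
    (hdim : Module.finrank F U < Module.finrank F W) (hU0 : ∃ u : U, u ≠ 0)
    (hq : 3 ≤ Module.finrank F U ∨ ∃ c : F, c ≠ 0 ∧ c ≠ 1)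
    {L : Submodule F W} (hL : perp g L = L) (hL0 : ∃ x ∈ L, x ≠ 0)
    {S : Subgroup ((U ⊗[F] W) ≃ₗ[F] (U ⊗[F] W))} (hS : IsPGroup p S) (hRS : RL M L ≤ S)
    (hSS : S ≤ Sten F U W) {r : (U ⊗[F] W) ≃ₗ[F] (U ⊗[F] W)} (hr : r ∈ M)
    (hrn : r ∈ Subgroup.normalizer (S : Set ((U ⊗[F] W) ≃ₗ[F] (U ⊗[F] W)))) :
    r ∈ Sten F U W := by
  have key : ∀ r ∈ M, r ∈ Subgroup.normalizer (S : Set ((U ⊗[F] W) ≃ₗ[F] (U ⊗[F] W))) →
      ∀ z : U, ∀ x ∈ L, r (z ⊗ₜ x) ∈ UL U L := by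
    intro r hr hrn z x hx
    by_cases hx0 : x = 0
    · rw [hx0, TensorProduct.tmul_zero, map_zero]
      exact Submodule.zero_mem _
    have h1 : r * actW U (tv h.hg x 1) * r⁻¹ ∈ S :=
      (Subgroup.mem_normalizer_iff.1 hrn _).1 (hRS (h.tv_mem_RL hL hx 1))
    obtain ⟨Y, Z, hYZ⟩ := hSS h1
    obtain ⟨w, A, d, hC⟩ := h.carry hdim hU0 (h.hO hr) hx0 one_ne_zero
      (Y := (Y : U →ₗ[F] U)) (Z := (Z : W →ₗ[F] W)) hYZ
    rw [hC.conj_eq h.hg, one_mul] at h1
    have hwL : w ∈ L := by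
      rw [← hL]
      intro y hy
      by_cases hy0 : y = 0
      · rw [hy0, map_zero, LinearMap.zero_apply]
      exact orth_of_pgroup h.hg hU0 hS one_ne_zero hC.hd (hRS (h.tv_mem_RL hL hy 1)) h1
    rw [hC.hA]
    exact tmul_mem_UL _ hwL
  refine h.lemK hLZ hdim hU0 hq hr hL hL ⟨key r hr hrn, key r⁻¹ (M.inv_mem hr) ?_⟩ hL0
  exact Subgroup.inv_mem _ hrn

/-- Maximal totally isotropic subspaces. -/
theorem Alt.exists_maxiso (hg : Alt g) (w : W) : ∃ L : Submodule F W, w ∈ L ∧ perp g L = L := by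
  -- maximal element among isotropic subspaces containing `w`
  let 𝒮 : Set (Submodule F W) := {L | w ∈ L ∧ L ≤ perp g L}
  have hne : 𝒮.Nonempty := by
    refine ⟨Submodule.span F {w}, Submodule.mem_span_singleton_self w, ?_⟩
    intro z hz y hy
    obtain ⟨a, rfl⟩ := Submodule.mem_span_singleton.1 hz
    obtain ⟨b, rfl⟩ := Submodule.mem_span_singleton.1 hy
    rw [map_smul, map_smul, LinearMap.smul_apply, hg.alt, smul_zero, smul_zero]
  obtain ⟨L, ⟨hwL, hL⟩, hmax⟩ := set_has_maximal_iff_noetherian.2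
    (inferInstance : IsNoetherian F W) 𝒮 hne
  refine ⟨L, hwL, le_antisymm ?_ hL⟩
  intro t ht
  by_contra htL
  have h1 : L ⊔ Submodule.span F {t} ∈ 𝒮 := by
    refine ⟨Submodule.mem_sup_left hwL, ?_⟩
    have htt : ∀ y ∈ L ⊔ Submodule.span F {t}, ∀ z ∈ L ⊔ Submodule.span F {t}, g y z = 0 := by
      intro y hy z hz
      obtain ⟨y1, hy1, y2, hy2, rfl⟩ := Submodule.mem_sup.1 hy
      obtain ⟨z1, hz1, z2, hz2, rfl⟩ := Submodule.mem_sup.1 hz
      obtain ⟨a, rfl⟩ := Submodule.mem_span_singleton.1 hy2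
      obtain ⟨b, rfl⟩ := Submodule.mem_span_singleton.1 hz2
      have e1 : g y1 z1 = 0 := hL hz1 y1 hy1
      have e2 : g y1 t = 0 := ht y1 hy1
      have e3 : g t z1 = 0 := hg.comm_zero (ht z1 hz1)
      simp [e1, e2, e3, hg.alt]
    exact fun z hz y hy => htt y hy z hz
  refine hmax _ h1 (lt_of_le_of_ne le_sup_left ?_)
  intro e
  apply htL
  rw [e]
  exact Submodule.mem_sup_right (Submodule.mem_span_singleton_self t)

/-- The group of elements trivial on `A`, `B / A`, `V / B`. -/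
def Rad {V : Type*} [AddCommGroup V] [Module F V] (A B : Submodule F V) :
    Subgroup (V ≃ₗ[F] V) where
  carrier := {s | (∀ v ∈ A, s v = v) ∧ (∀ v ∈ B, s v - v ∈ A) ∧ (∀ v, s v - v ∈ B)}
  one_mem' := ⟨fun _ _ => rfl, fun v _ => by
    show v - v ∈ A
    rw [sub_self]; exact A.zero_mem, fun v => by
    show v - v ∈ B
    rw [sub_self]; exact B.zero_mem⟩
  mul_mem' := by
    rintro s r ⟨hs1, hs2, hs3⟩ ⟨hr1, hr2, hr3⟩
    refine ⟨fun v hv => ?_, fun v hv => ?_, fun v => ?_⟩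
    · show s (r v) = v
      rw [hr1 v hv, hs1 v hv]
    · show s (r v) - v ∈ A
      have h1 := hr2 v hv
      have h2 : s (r v) - v = (s (r v - v) - (r v - v)) + (r v - v) + (s v - v) := by
        rw [map_sub]; abel
      rw [h2, hs1 _ h1, sub_self, zero_add]
      exact A.add_mem h1 (hs2 v hv)
    · show s (r v) - v ∈ B
      have h2 : s (r v) - v = (s (r v) - r v) + (r v - v) := by abel
      rw [h2]
      exact B.add_mem (hs3 _) (hr3 _)
  inv_mem' := by
    rintro s ⟨hs1, hs2, hs3⟩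
    have hss : ∀ v, s (s⁻¹ v) = v := fun v => LinearEquiv.apply_symm_apply s v
    have h3 : ∀ v, s⁻¹ v - v ∈ B := by
      intro v
      have h1 := hs3 (s⁻¹ v)
      rw [hss] at h1
      rw [← neg_sub]
      exact B.neg_mem h1
    refine ⟨fun v hv => ?_, fun v hv => ?_, h3⟩
    · apply s.injective
      rw [hss, hs1 v hv]
    · have h4 : s⁻¹ v ∈ B := by
        have := B.add_mem (h3 v) hv
        rwa [sub_add_cancel] at this
      have h1 := hs2 _ h4
      rw [hss] at h1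
      rw [← neg_sub]
      exact A.neg_mem h1

theorem Rad_conj {V : Type*} [AddCommGroup V] [Module F V] {A B : Submodule F V}
    {s r : V ≃ₗ[F] V} (hs : s ∈ Rad A B) (hA : ∀ v ∈ A, r v ∈ A) (hA' : ∀ v ∈ A, r⁻¹ v ∈ A)
    (hB : ∀ v ∈ B, r v ∈ B) (hB' : ∀ v ∈ B, r⁻¹ v ∈ B) : r * s * r⁻¹ ∈ Rad A B := by
  obtain ⟨hs1, hs2, hs3⟩ := hs
  have hrr : ∀ v, r (r⁻¹ v) = v := fun v => LinearEquiv.apply_symm_apply r v
  refine ⟨fun v hv => ?_, fun v hv => ?_, fun v => ?_⟩
  · show r (s (r⁻¹ v)) = v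
    rw [hs1 _ (hA' v hv), hrr]
  · show r (s (r⁻¹ v)) - v ∈ A
    have h1 := hA _ (hs2 _ (hB' v hv))
    rwa [map_sub, hrr] at h1
  · show r (s (r⁻¹ v)) - v ∈ B
    have h1 := hB _ (hs3 (r⁻¹ v))
    rwa [map_sub, hrr] at h1

theorem Rad_pgroup {V : Type*} [AddCommGroup V] [Module F V] {p : ℕ} [Fact p.Prime] [CharP F p]
    {A B : Submodule F V} : IsPGroup p (Rad A B) := by
  rintro ⟨s, hs1, hs2, hs3⟩
  obtain ⟨m, hm⟩ := pow_of_nilp (p := p) (s := s)
    (n := (s : V →ₗ[F] V) - 1) (k := 3) (fun v => by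
      show s v = v + (s v - v)
      abel) (by
      have hn : ∀ v, ((s : V →ₗ[F] V) - 1 : Module.End F V) v = s v - v := fun v => rfl
      ext v
      rw [pow_succ, pow_two, Module.End.mul_apply, Module.End.mul_apply, LinearMap.zero_apply,
        hn v, hn (s v - v), hn (s (s v - v) - (s v - v)), hs1 _ (hs2 _ (hs3 v)), sub_self])
  exact ⟨m, Subtype.ext hm⟩

end Cfsg.Agent.H887.TenSp
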