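import Mathlib
import Cfsg.Agent.H887.TenSp.Final
import Cfsg.Agent.H887.OmegaBridge
import Cfsg.Agent.H883.Tensor
import Cfsg.Agent.S0752

/-!
Frozen-vocabulary form: the stabiliser in `Ω` of a tensor decomposition symplectic ⊗ symplectic,
`n₁ < n₂`, is maximal.
-/

set_option autoImplicit false
set_option linter.unusedSectionVars false
set_option linter.unusedSimpArgs false

namespace Cfsg.Agent.H887.TenSp

open TensorProduct QuadraticMap Cfsg.Agent.LieClassical.OrthCore
  Cfsg.Agent.LieClassical.OrthTrans Cfsg.Agent.ClassicalGeometry.OrthAutBasic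
  Cfsg.Agent.H887.SiegelMethod Cfsg.Agent.H887.OmegaBridge

section Transport

variable {F X Y : Type*} [Field F] [AddCommGroup X] [Module F X] [AddCommGroup Y] [Module F Y]

/-- Conjugation by a linear equivalence. -/
def conjE (φ : X ≃ₗ[F] Y) : (X ≃ₗ[F] X) ≃* (Y ≃ₗ[F] Y) where
  toFun := fun s => (φ.symm.trans s).trans φ
  invFun := fun s => (φ.trans s).trans φ.symm
  left_inv := fun s => by ext v; simp
  right_inv := fun s => by ext v; simp
  map_mul' := fun s r => by ext v; simp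

theorem conjE_apply (φ : X ≃ₗ[F] Y) (s : X ≃ₗ[F] X) (v : Y) :
    conjE φ s v = φ (s (φ.symm v)) := rfl

theorem conjE_symm_apply (φ : X ≃ₗ[F] Y) (s : Y ≃ₗ[F] Y) (v : X) :
    (conjE φ).symm s v = φ.symm (s (φ v)) := rfl

theorem conjE_T (φ : X ≃ₗ[F] Y) (Q : QuadraticForm F Y) (Q' : QuadraticForm F X)
    (hQ : ∀ v, Q' v = Q (φ v)) (u w : X) : conjE φ (T Q' u w) = T Q (φ u) (φ w) := by
  have hpol : ∀ a b, polar Q (φ a) (φ b) = polar Q' a b := by
    intro a b
    rw [polar, polar, hQ, hQ, hQ, map_add φ]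
  by_cases h : Q' u = 0 ∧ polar Q' u w = 0
  · ext v
    rw [conjE_apply, T_apply h.1 h.2, T_apply (by rw [← hQ]; exact h.1)
      (by rw [hpol]; exact h.2)]
    have e : v = φ (φ.symm v) := (φ.apply_symm_apply v).symm
    conv_rhs => rw [e]
    simp only [map_add, map_sub, map_smul, hpol, ← hQ]
  · rw [T_eq_one h, T_eq_one (by rw [← hQ, hpol]; exact h), map_one]

theorem conjE_mem_E (φ : X ≃ₗ[F] Y) (Q : QuadraticForm F Y) (Q' : QuadraticForm F X)
    (hQ : ∀ v, Q' v = Q (φ v)) {s : X ≃ₗ[F] X} (hs : s ∈ E Q') : conjE φ s ∈ E Q := by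
  have h1 : E Q' ≤ (E Q).comap (conjE φ).toMonoidHom := by
    rw [E, Subgroup.closure_le]
    rintro _ ⟨u, w, hu, hw, rfl⟩
    show conjE φ (siegel Q' u w hu hw) ∈ E Q
    rw [← T_eq hu hw, conjE_T φ Q Q' hQ]
    exact T_mem_E _ _
  exact h1 hs

theorem conjE_mem_E_iff (φ : X ≃ₗ[F] Y) (Q : QuadraticForm F Y) (Q' : QuadraticForm F X)
    (hQ : ∀ v, Q' v = Q (φ v)) {s : X ≃ₗ[F] X} : conjE φ s ∈ E Q ↔ s ∈ E Q' := by
  refine ⟨fun h => ?_, conjE_mem_E φ Q Q' hQ⟩
  have h1 := conjE_mem_E φ.symm Q' Q (fun v => by rw [hQ, φ.apply_symm_apply]) h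
  have e : conjE φ.symm (conjE φ s) = s := by
    ext v
    simp [conjE_apply]
  rwa [e] at h1

end Transport

variable {F U W : Type*} [Field F] [AddCommGroup U] [Module F U] [AddCommGroup W] [Module F W]
  [FiniteDimensional F U] [FiniteDimensional F W]
  {f : LinearMap.BilinForm F U} {g : LinearMap.BilinForm F W}
  {Q : QuadraticForm F (U ⊗[F] W)} {M : Subgroup ((U ⊗[F] W) ≃ₗ[F] (U ⊗[F] W))}

/-- The identity in terms of a symplectic basis. -/
theorem Alt.exists_id (hg : Alt g) : ∃ (m : ℕ) (y y' : Fin m → W),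
    ∑ i, (E1 g (y' i) (y i) - E1 g (y i) (y' i)) = 1 := by
  obtain ⟨m, k, b, h1, h2, h3, h4⟩ := Cfsg.Agent.S0752.result g hg.alt
  have h5 : ∀ i j, g (b (Sum.inl (Sum.inr i))) (b (Sum.inl (Sum.inl j))) =
      - if i = j then 1 else 0 := by
    intro i j
    rw [hg.neg, h1]
    simp only [eq_comm]
  refine ⟨m, fun i => b (Sum.inl (Sum.inl i)), fun i => b (Sum.inl (Sum.inr i)), ?_⟩
  apply b.ext
  rintro ((j | j) | j)
  · rw [LinearMap.sum_apply, Module.End.one_apply]
    simp only [LinearMap.sub_apply, E1_apply, h2, h5, zero_smul, zero_sub, neg_smul, neg_neg,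
      ite_smul, one_smul, Finset.sum_ite_eq', Finset.mem_univ, if_true]
  · rw [LinearMap.sum_apply, Module.End.one_apply]
    simp only [LinearMap.sub_apply, E1_apply, h1, h3, zero_smul, sub_zero,
      ite_smul, one_smul, Finset.sum_ite_eq', Finset.mem_univ, if_true]
  · exfalso
    exact b.ne_zero (Sum.inr j) (hg.nd _ (h4 j))

theorem Sp2.In_E_rt (h : Sp2 f g Q) {x x' : U} {y y' : W} (hp : f x x' * g y y' = 0) (c : F) :
    In (E Q) (c • rt Q (x ⊗ₜ[F] y) (x' ⊗ₜ y')) := by
  refine ⟨T Q (x ⊗ₜ y) (c • (x' ⊗ₜ y')), T_mem_E _ _, fun v => ?_⟩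
  rw [T_apply_root (h.Qp _ _) (by rw [QuadraticMap.map_smul, h.Qp, smul_zero])
    (by rw [polar_smul_right, h.pol, hp, smul_zero]), LinearMap.smul_apply, rt_apply,
    polar_smul_left]
  module

/-- Transvections `τ ⊗ 1` are in `E Q`. -/
theorem Sp2.In_E_U (h : Sp2 f g Q) (u : U) (c : F) :
    In (E Q) (c • TensorProduct.map (E1 f u u) 1) := by
  obtain ⟨m, y, y', hy⟩ := h.hg.exists_id
  rw [← hy]
  have key : ∀ s : Finset (Fin m), In (E Q) (c • TensorProduct.map (E1 f u u)
      (∑ i ∈ s, (E1 g (y' i) (y i) - E1 g (y i) (y' i)))) := by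
    intro s
    induction s using Finset.induction_on with
    | empty =>
      rw [Finset.sum_empty, TensorProduct.map_zero_right, smul_zero]
      exact In.zero
    | insert a s ha ih =>
      rw [Finset.sum_insert ha, TensorProduct.map_add_right, smul_add]
      have h1 := h.In_E_rt (x := u) (x' := u) (y := y a) (y' := y' a)
        (by rw [h.hf.alt, zero_mul]) c
      rw [h.rt_eq, ← map_subR] at h1
      refine h1.add ih ?_
      rw [smul_mul_smul_comm, map_mul', E1_mul, h.hf.alt, zero_smul,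
        TensorProduct.map_zero_left, smul_zero]
  exact key Finset.univ

theorem Sp2.In_E_W (h : Sp2 f g Q) (w : W) (c : F) :
    In (E Q) (c • TensorProduct.map 1 (E1 g w w)) := by
  obtain ⟨m, y, y', hy⟩ := h.hf.exists_id
  rw [← hy]
  have key : ∀ s : Finset (Fin m), In (E Q) (c • TensorProduct.map
      (∑ i ∈ s, (E1 f (y' i) (y i) - E1 f (y i) (y' i))) (E1 g w w)) := by
    intro s
    induction s using Finset.induction_on with
    | empty =>
      rw [Finset.sum_empty, TensorProduct.map_zero_left, smul_zero]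
      exact In.zero
    | insert a s ha ih =>
      rw [Finset.sum_insert ha, TensorProduct.map_add_left, smul_add]
      have h1 := h.In_E_rt (x := y a) (x' := y' a) (y := w) (y' := w)
        (by rw [h.hg.alt, mul_zero]) c
      rw [h.rt_eq, ← map_subL] at h1
      refine h1.add ih ?_
      rw [smul_mul_smul_comm, map_mul', E1_mul (f := g), h.hg.alt, zero_smul,
        TensorProduct.map_zero_right, smul_zero]
  exact key Finset.univ

/-- Some element of `E Q` is not in `Sten`. -/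
theorem Sp2.exists_not_mem (h : Sp2 f g Q) (hU0 : ∃ u : U, u ≠ 0)
    (hW : 3 ≤ Module.finrank F W) : ∃ s ∈ E Q, s ∉ Sten F U W := by
  obtain ⟨u, hu⟩ := hU0
  obtain ⟨w, hw⟩ : ∃ w : W, w ≠ 0 := by
    by_contra hcon
    push Not at hcon
    have : Subsingleton W := ⟨fun a b => by rw [hcon a, hcon b]⟩
    have := Module.finrank_zero_of_subsingleton (R := F) (M := W)
    omega
  obtain ⟨w', hw'w, hw'⟩ := h.hg.exists_perp1 hW hw
  have hww' := h.hg.comm_zero hw'w
  obtain ⟨s, hs, hs'⟩ := h.In_E_rt (x := u) (x' := u) (y := w) (y' := w')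
    (by rw [h.hf.alt, zero_mul]) 1
  refine ⟨s, hs, ?_⟩
  rintro ⟨A, B, hAB⟩
  have hsv : ∀ z t, s (z ⊗ₜ t) = z ⊗ₜ t + (f u z * g w t) • (u ⊗ₜ w') -
      (f u z * g w' t) • (u ⊗ₜ w) := by
    intro z t
    rw [hs', one_smul, rt_apply, h.pol, h.pol]
    abel
  obtain ⟨z, hz⟩ := h.hf.exists_ne hu
  -- `A u ⊗ B t = u ⊗ t`
  have h1 : ∀ t, A u ⊗ₜ[F] B t = u ⊗ₜ t := by
    intro t
    rw [← hAB, hsv, h.hf.alt, zero_mul, zero_mul, zero_smul, zero_smul, add_zero, sub_zero]
  have hAu : A u ≠ 0 := fun e => hu ((LinearEquiv.map_eq_zero_iff A).1 e)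
  obtain ⟨φ, hφ⟩ := h.hf.exists_ne' hAu
  have hB : ∀ t, B t = f φ u • t := by
    intro t
    have := congrArg (kU f W φ) (h1 t)
    rwa [kU_tmul, kU_tmul, hφ, one_smul] at this
  have h2 : A z ⊗ₜ[F] B w' = z ⊗ₜ w' := by
    rw [← hAB, hsv, hww', h.hg.alt, mul_zero, zero_smul, zero_smul, add_zero, sub_zero]
  have hw'0 : w' ≠ 0 := ne_of_not_mem hw'
  have h3 : f φ u • A z = z := by
    rw [hB, TensorProduct.tmul_smul, TensorProduct.smul_tmul'] at h2
    exact h.hg.tmul_left_inj hw'0 h2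
  obtain ⟨t, ht, ht'⟩ := h.hg.sep1 (not_mem_symm hw' hw)
  have h4 := hAB z t
  rw [hB, TensorProduct.tmul_smul, TensorProduct.smul_tmul', h3, hsv, hz, one_mul, one_mul,
    h.hg.neg w t, ht, h.hg.comm_zero ht', zero_smul, sub_zero, neg_one_smul] at h4
  have h5 : u ⊗ₜ[F] w' = 0 := by
    have h6 : z ⊗ₜ[F] t + -(u ⊗ₜ w') = z ⊗ₜ t + 0 := by rw [h4, add_zero]
    exact neg_eq_zero.1 (add_left_cancel h6)
  exact h.hf.tmul_ne_zero hu hw'0 h5

/-! ### The frozen form -/

section Frozen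

open Cfsg.Agent.H883.Tensor

variable {ι : Type} [Fintype ι] [DecidableEq ι] {F : Type*} [Field F] {n₁ n₂ : ℕ}

/-- The bilinear form of a function. -/
def bil {n : ℕ} {f : (Fin n → F) → (Fin n → F) → F} (hf : Cfsg.Geo.IsBilinearForm f) (c : F) :
    LinearMap.BilinForm F (Fin n → F) :=
  LinearMap.mk₂ F (fun x y => c * f x y)
    (fun x x' y => by rw [hf.add_left, mul_add])
    (fun a x y => by rw [hf.smul_left, smul_eq_mul]; ring)
    (fun x y y' => by rw [hf.add_right, mul_add])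
    (fun a x y => by rw [hf.smul_right, smul_eq_mul]; ring)

theorem bil_apply {n : ℕ} {f : (Fin n → F) → (Fin n → F) → F} (hf : Cfsg.Geo.IsBilinearForm f)
    (c : F) (x y : Fin n → F) : bil hf c x y = c * f x y := rfl

theorem alt_bil {n : ℕ} {f : (Fin n → F) → (Fin n → F) → F} (hf : Cfsg.Geo.IsSymplecticForm f)
    {c : F} (hc : c ≠ 0) : Alt (bil hf.bilinear c) where
  alt := fun x => by rw [bil_apply, hf.alternating, mul_zero]
  nd := fun x hx => by
    by_contra h
    obtain ⟨y, hy⟩ := (hf.nondegenerate x h).2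
    have h1 := hx y
    rw [bil_apply] at h1
    exact hy ((mul_eq_zero.1 h1).resolve_left hc)

theorem two_le_of_symp {n : ℕ} {f : (Fin n → F) → (Fin n → F) → F}
    (hf : Cfsg.Geo.IsSymplecticForm f) (hn : n ≠ 0) : 2 ≤ n := by
  by_contra hcon
  have h1 : n = 1 := by omega
  subst h1
  have h2 : (1 : Fin 1 → F) ≠ 0 := by
    intro e
    exact one_ne_zero (congrFun e 0)
  obtain ⟨y, hy⟩ := (hf.nondegenerate 1 h2).2
  apply hy
  have h3 : y = y 0 • (1 : Fin 1 → F) := by
    ext i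
    rw [Subsingleton.elim i 0]
    simp
  rw [h3, hf.bilinear.smul_right, hf.alternating, mul_zero]

/-- The equivalence `F^n₁ ⊗ F^n₂ ≃ F^ι`. -/
theorem exists_equiv (e : ι ≃ Fin n₁ × Fin n₂) (P : Matrix.GeneralLinearGroup ι F) :
    ∃ φ : ((Fin n₁ → F) ⊗[F] (Fin n₂ → F)) ≃ₗ[F] (ι → F), ∀ x y, φ (x ⊗ₜ y) = pure e P x y := by
  let φ : ((Fin n₁ → F) ⊗[F] (Fin n₂ → F)) →ₗ[F] (ι → F) := TensorProduct.lift (pureBilin e P)
  have hφ : ∀ x y, φ (x ⊗ₜ y) = pure e P x y := fun x y => by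
    rw [TensorProduct.lift.tmul, pureBilin_apply]
  have hsurj : Function.Surjective φ := by
    intro v
    refine ⟨∑ i, (Pi.single i (1 : F)) ⊗ₜ (fun j => (vec e P).symm v (i, j)), ?_⟩
    rw [map_sum]
    conv_rhs => rw [eq_sum_pure e P v]
    exact Finset.sum_congr rfl fun i _ => hφ _ _
  have hdim : Module.finrank F ((Fin n₁ → F) ⊗[F] (Fin n₂ → F)) = Module.finrank F (ι → F) := by
    rw [Module.finrank_tensorProduct, Module.finrank_fintype_fun_eq_card,
      Module.finrank_fintype_fun_eq_card, Module.finrank_fintype_fun_eq_card,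
      Fintype.card_congr e, Fintype.card_prod]
  have hinj : Function.Injective φ :=
    (LinearMap.injective_iff_surjective_of_finrank_eq_finrank hdim).2 hsurj
  exact ⟨LinearEquiv.ofBijective φ ⟨hinj, hsurj⟩, hφ⟩

/-- **Symplectic ⊗ symplectic tensor decompositions with `n₁ < n₂` are maximal.** -/
theorem tensor_maximal [Fintype F] (Q : (ι → F) → F)
    (hQ : Cfsg.Geo.IsNondegenerateQuadraticForm Q) (h12 : n₁ < n₂) (h5 : 5 ≤ n₂)
    (hn₁ : n₁ ≠ 0) (hex : ¬ (Fintype.card F = 2 ∧ n₁ = 2)) (e : ι ≃ Fin n₁ × Fin n₂)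
    (P : Matrix.GeneralLinearGroup ι F)
    (f₁ : (Fin n₁ → F) → (Fin n₁ → F) → F) (f₂ : (Fin n₂ → F) → (Fin n₂ → F) → F)
    (hf₁ : Cfsg.Geo.IsSymplecticForm f₁) (hf₂ : Cfsg.Geo.IsSymplecticForm f₂)
    (hT : Cfsg.Geo.IsTensorFormStructure id (QuadraticMap.polar Q) f₁ f₂ e P)
    (hpure : ∀ (x₁ : Fin n₁ → F) (x₂ : Fin n₂ → F), Q (pure e P x₁ x₂) = 0) :
    Cfsg.Geo.IsMaximalIn (Cfsg.Geo.omegaGL Q)
      (Cfsg.Geo.tensorProductSubgroup n₁ n₂ e P ⊓ Cfsg.Geo.omegaGL Q) := by
  classical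
  obtain ⟨c, hc, hpol⟩ := form_pure hf₁.bilinear hf₂.bilinear hT
  obtain ⟨φ, hφ⟩ := exists_equiv e P
  have h2 : 2 ≤ n₁ := two_le_of_symp hf₁ hn₁
  have hcard : Fintype.card ι = n₁ * n₂ := by
    rw [Fintype.card_congr e, Fintype.card_prod, Fintype.card_fin, Fintype.card_fin]
  have hι : 7 ≤ Fintype.card ι := by
    rw [hcard]
    nlinarith
  have hG : Good (qf Q hQ) := (big_qf Q hQ hι).good
  let f : LinearMap.BilinForm F (Fin n₁ → F) := bil hf₁.bilinear c
  let g : LinearMap.BilinForm F (Fin n₂ → F) := bil hf₂.bilinear 1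
  let Q' : QuadraticForm F ((Fin n₁ → F) ⊗[F] (Fin n₂ → F)) := (qf Q hQ).comp φ.toLinearMap
  have hQ' : ∀ v, Q' v = qf Q hQ (φ v) := fun v => rfl
  have hQpol : ∀ a b, polar Q' a b = polar Q (φ a) (φ b) := by
    intro a b
    rw [polar, polar, hQ', hQ', hQ', map_add φ]
    rfl
  have hsp : Sp2 f g Q' :=
    { hf := alt_bil hf₁ hc
      hg := alt_bil hf₂ one_ne_zero
      Qp := fun x y => by
        rw [hQ', hφ]
        exact hpure x y
      pol := fun x x' y y' => by
        rw [hQpol, hφ, hφ, hpol, bil_apply, bil_apply]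
        ring }
  have hfU : Module.finrank F (Fin n₁ → F) = n₁ := by simp
  have hfW : Module.finrank F (Fin n₂ → F) = n₂ := by simp
  have hbig : Big Q' :=
    { nondeg := hsp.nondeg
      dim := by
        rw [Module.finrank_tensorProduct, hfU, hfW, ← hcard]
        exact hι }
  have hU0 : ∃ u : Fin n₁ → F, u ≠ 0 := by
    refine ⟨fun _ => 1, fun e => ?_⟩
    exact one_ne_zero (congrFun e (⟨0, by omega⟩ : Fin n₁))
  have hq : 3 ≤ Module.finrank F (Fin n₁ → F) ∨ ∃ c : F, c ≠ 0 ∧ c ≠ 1 := by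
    rw [hfU]
    by_cases h3 : 3 ≤ n₁
    · exact Or.inl h3
    right
    by_contra hcon
    push Not at hcon
    apply hex
    refine ⟨?_, by omega⟩
    have h4 : (Finset.univ : Finset F) = {0, 1} := by
      ext x
      simp only [Finset.mem_univ, Finset.mem_insert, Finset.mem_singleton, true_iff]
      by_cases hx : x = 0
      · exact Or.inl hx
      · exact Or.inr (hcon x hx)
    rw [← Finset.card_univ, h4, Finset.card_pair zero_ne_one]
  -- the set of automorphisms
  let S' : Set ((ι → F) ≃ₗ[F] (ι → F)) := {s | (conjE φ).symm s ∈ Sten F _ _}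
  have hS' : ∀ s, s ∈ S' ↔ ∃ (a : (Fin n₁ → F) ≃ₗ[F] (Fin n₁ → F))
      (b : (Fin n₂ → F) ≃ₗ[F] (Fin n₂ → F)), ∀ x y, s (pure e P x y) = pure e P (a x) (b y) := by
    intro s
    constructor
    · rintro ⟨a, b, hab⟩
      refine ⟨a, b, fun x y => ?_⟩
      have h1 := hab x y
      rw [conjE_symm_apply, hφ, LinearEquiv.symm_apply_eq, hφ] at h1
      exact h1
    · rintro ⟨a, b, hab⟩
      refine ⟨a, b, fun x y => ?_⟩
      rw [conjE_symm_apply, hφ, LinearEquiv.symm_apply_eq, hφ]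
      exact hab x y
  refine isMaximalIn_omegaGL Q hQ hG _ S' ?_ ?_ ?_
  · intro s
    rw [mem_tensorProductSubgroup_iff, hS']
    constructor
    · rintro ⟨a, b, hab⟩
      exact ⟨le _ F a, le _ F b, fun x y => hab x y⟩
    · rintro ⟨a, b, hab⟩
      refine ⟨(le _ F).symm a, (le _ F).symm b, fun x y => ?_⟩
      rw [le_symm_mulVec, le_symm_mulVec]
      exact hab x y
  · obtain ⟨s, hs, hs'⟩ := hsp.exists_not_mem hU0 (by rw [hfW]; omega)
    refine ⟨conjE φ s, conjE_mem_E φ _ Q' hQ' hs, ?_⟩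
    intro h1
    apply hs'
    have h3 : (conjE φ).symm (conjE φ s) ∈ Sten F _ _ := h1
    rwa [MulEquiv.symm_apply_apply] at h3
  · intro H hHE hH1 hH2
    obtain ⟨p, hp⟩ := CharP.exists F
    have hpp : Fact p.Prime := ⟨(CharP.char_is_prime_or_zero F p).resolve_right (by
      intro h0
      subst h0
      have := CharP.charP_to_charZero F
      exact not_finite F)⟩
    have hfin : Finite ((Fin n₁ → F) ⊗[F] (Fin n₂ → F)) :=
      Finite.of_injective φ φ.injective
    have hfin' : Finite (((Fin n₁ → F) ⊗[F] (Fin n₂ → F)) ≃ₗ[F]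
        ((Fin n₁ → F) ⊗[F] (Fin n₂ → F))) :=
      Finite.of_injective (fun s => (s : _ → _)) DFunLike.coe_injective
    let M : Subgroup (((Fin n₁ → F) ⊗[F] (Fin n₂ → F)) ≃ₗ[F]
        ((Fin n₁ → F) ⊗[F] (Fin n₂ → F))) := H.comap (conjE φ).toMonoidHom
    have hMmem : ∀ s, s ∈ M ↔ conjE φ s ∈ H := fun s => Iff.rfl
    have hME : M ≤ E Q' := by
      intro s hs
      rw [← conjE_mem_E_iff φ (qf Q hQ) Q' hQ']
      exact hHE hs
    -- elements of `E Q'` in `Sten` are in `M`
    have hin : ∀ s ∈ E Q', s ∈ Sten F _ _ → s ∈ M := by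
      intro s hs hs'
      refine hH1 _ (conjE_mem_E φ _ Q' hQ' hs) ?_
      show (conjE φ).symm (conjE φ s) ∈ Sten F _ _
      rwa [MulEquiv.symm_apply_apply]
    have hy : Hy f g Q' M :=
      { toSp2 := hsp
        hO := hME.trans E_le_O
        hU := by
          intro u c'
          obtain ⟨s, hs, hs'⟩ := hsp.In_E_U u c'
          refine ⟨s, hin s hs ?_, hs'⟩
          have e1 : s = actU _ (tv hsp.hf u c') := by
            apply ext_pure
            intro x y
            rw [actU_tv, kU_tmul, hs', LinearMap.smul_apply, map_E1_left, kU_tmul]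
            rfl
          rw [e1]
          exact ⟨tv hsp.hf u c', 1, fun x y => actU_tmul _ x y⟩
        hW := by
          intro w c'
          obtain ⟨s, hs, hs'⟩ := hsp.In_E_W w c'
          refine ⟨s, hin s hs ?_, hs'⟩
          have e1 : s = actW _ (tv hsp.hg w c') := by
            apply ext_pure
            intro x y
            rw [actW_tv, kW_tmul, hs', LinearMap.smul_apply, map_E1_right, kW_tmul]
            rfl
          rw [e1]
          exact actW_mem_Sten _ }
    have hmain := hy.main (p := p) (by rw [hfU]; exact h2) (by rw [hfU, hfW]; exact h12)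
      (by rw [hfW]; exact h5) hq hbig
    rcases hmain with h3 | h3
    · intro s hs
      have h4 : (conjE φ).symm s ∈ E Q' := by
        rw [← conjE_mem_E_iff φ (qf Q hQ) Q' hQ', MulEquiv.apply_symm_apply]
        exact hs
      have h5 := h3 h4
      rw [hMmem, MulEquiv.apply_symm_apply] at h5
      exact h5
    · exfalso
      obtain ⟨s, hs, hs'⟩ := hH2
      apply hs'
      apply h3
      rw [hMmem, MulEquiv.apply_symm_apply]
      exact hs

end Frozen

end Cfsg.Agent.H887.TenSp
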